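import Cfsg.Agent.ClassBase.PSL42
import Cfsg.Agent.H25.OddStable
import Mathlib.LinearAlgebra.Matrix.ToLin
import Mathlib.LinearAlgebra.Matrix.SpecialLinearGroup

/-!
# Automorphisms of elementary abelian 2-groups of order at most 16 embed in `A₈`
-/

set_option autoImplicit false

namespace Cfsg.Agent.H51

open Matrix

/-- invertible matrices over `F₂` have determinant 1. -/
theorem det_eq_one_of_mul {n : Type*} [Fintype n] [DecidableEq n] {A B : Matrix n n (ZMod 2)} (h : A * B = 1) :
    A.det = 1 := by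
  have h1 : A.det * B.det = 1 := by rw [← Matrix.det_mul, h, Matrix.det_one]
  have key : ∀ a b : ZMod 2, a * b = 1 → a = 1 := by decide
  exact key _ _ h1

/-- A group of 4x4 invertible matrices over `F₂`, in the form of an injective homomorphism to `A₈`. -/
theorem exists_hom_A8_of_matrix {X : Type*} [Group X] (F : X →* Matrix (Fin 4) (Fin 4) (ZMod 2)) :
    ∃ f : X →* ↥(alternatingGroup (Fin 8)), ∀ x, f x = 1 → F x = 1 := by
  obtain ⟨e⟩ := Cfsg.Agent.ClassBase.PSL42.main
  let g : X →* SpecialLinearGroup (Fin 4) (ZMod 2) :=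
    { toFun := fun x => ⟨F x, det_eq_one_of_mul (B := F x⁻¹) (by rw [← map_mul, mul_inv_cancel, map_one])⟩
      map_one' := by
        apply Subtype.ext
        exact map_one F
      map_mul' := fun x y => by
        apply Subtype.ext
        exact map_mul F x y }
  refine ⟨(e.toMonoidHom.comp (QuotientGroup.mk' _)).comp g, ?_⟩
  intro x hx
  have h1 : e (QuotientGroup.mk' _ (g x)) = 1 := hx
  rw [map_eq_one_iff e e.injective, ← MonoidHom.mem_ker, QuotientGroup.ker_mk'] at h1
  rw [Matrix.SpecialLinearGroup.mem_center_iff] at h1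
  obtain ⟨r, hr, hrx⟩ := h1
  have key : ∀ r : ZMod 2, r ^ 4 = 1 → r = 1 := by decide
  have hr1 : r = 1 := key r (by simpa using hr)
  rw [hr1, map_one] at hrx
  exact hrx.symm

theorem exists_aut_embed {V : Type*} [CommGroup V] [Finite V] (hV : ∀ v : V, v ^ 2 = 1)
    (hc : Nat.card V ≤ 16) : ∃ f : MulAut V →* ↥(alternatingGroup (Fin 8)), Function.Injective f := by
  letI inst : Module (ZMod 2) (Additive V) := AddCommGroup.zmodModule (G := Additive V) (fun v => hV v.toMul)
  haveI : FiniteDimensional (ZMod 2) (Additive V) := Module.Finite.of_finite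
  obtain ⟨n, hn⟩ : ∃ n, n = Module.finrank (ZMod 2) (Additive V) := ⟨_, rfl⟩
  have hcard : Nat.card V = 2 ^ n := by
    have h1 := Module.natCard_eq_pow_finrank (K := ZMod 2) (V := Additive V)
    rw [← hn, Nat.card_zmod] at h1
    exact h1
  have hn4 : n ≤ 4 := by
    rw [hcard] at hc
    exact (Nat.pow_le_pow_iff_right (by norm_num : 1 < 2)).mp (hc.trans_eq (by norm_num : 16 = 2 ^ 4))
  let W := Fin (4 - n) → ZMod 2
  have hfin : Module.finrank (ZMod 2) (Additive V × W) = Module.finrank (ZMod 2) (Fin 4 → ZMod 2) := by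
    rw [Module.finrank_prod, ← hn, Module.finrank_fin_fun, Module.finrank_fin_fun]
    omega
  let e : (Additive V × W) ≃ₗ[ZMod 2] (Fin 4 → ZMod 2) := LinearEquiv.ofFinrankEq _ _ hfin
  let ρ : MulAut V →* Module.End (ZMod 2) (Additive V) := Cfsg.Agent.H25.mulAutRep 2 (MonoidHom.id (MulAut V))
  let F1 : MulAut V →* Module.End (ZMod 2) (Additive V × W) :=
    { toFun := fun α => LinearMap.prodMap (ρ α) LinearMap.id
      map_one' := by
        rw [map_one]
        apply LinearMap.ext
        intro x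
        rfl
      map_mul' := fun α β => by
        rw [map_mul]
        apply LinearMap.ext
        intro x
        rfl }
  let F2 : MulAut V →* Module.End (ZMod 2) (Fin 4 → ZMod 2) :=
    ((LinearEquiv.conjRingEquiv e : Module.End (ZMod 2) (Additive V × W) ≃+* Module.End (ZMod 2) (Fin 4 → ZMod 2)) : _ →* _).comp F1
  let F3 : MulAut V →* Matrix (Fin 4) (Fin 4) (ZMod 2) :=
    ((LinearMap.toMatrixAlgEquiv' : _ ≃ₐ[ZMod 2] Matrix (Fin 4) (Fin 4) (ZMod 2)) : _ →* _).comp F2
  obtain ⟨f, hf⟩ := exists_hom_A8_of_matrix F3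
  refine ⟨f, ?_⟩
  rw [injective_iff_map_eq_one]
  intro α hα
  have h1 := hf α hα
  have h2 : F2 α = 1 := by
    have h3 : LinearMap.toMatrixAlgEquiv' (F2 α) = (1 : Matrix (Fin 4) (Fin 4) (ZMod 2)) := h1
    exact (EmbeddingLike.map_eq_one_iff (f := (LinearMap.toMatrixAlgEquiv' : Module.End (ZMod 2) (Fin 4 → ZMod 2) ≃ₐ[ZMod 2] Matrix (Fin 4) (Fin 4) (ZMod 2)))).mp h3
  have h3 : F1 α = 1 := by
    have h4 : (LinearEquiv.conjRingEquiv e) (F1 α) = 1 := h2
    exact (EmbeddingLike.map_eq_one_iff (f := LinearEquiv.conjRingEquiv e)).mp h4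
  ext v
  have h4 : (F1 α) (Additive.ofMul v, 0) = (Additive.ofMul v, 0) := by rw [h3]; rfl
  have h5 : ρ α (Additive.ofMul v) = Additive.ofMul v := congrArg Prod.fst h4
  exact Additive.ofMul.injective h5

end Cfsg.Agent.H51
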