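import Cfsg.Agent.H51.A8Sec

set_option autoImplicit false

/-!
A 3-local argument excluding simple sections containing `3^2 : D_8`: second version, with commuting conjugates.
-/

namespace Cfsg.Agent.H51.A8Sec

variable {H Q : Type*} [Group H] [Group Q]

theorem nx2 (r : Rel Q) : r.x2 ≠ 1 := by
  intro h
  apply r.n1
  have := r.hρ2
  rw [h, mul_one, mul_inv_cancel] at this
  exact (inv_eq_one.1 this.symm)

theorem nine_le [Finite H] (r : Rel Q) (φ : H →* Q) (hφ : Function.Surjective φ) : 9 ≤ Nat.card r.C := by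
  have nx2 := nx2 r
  haveI : Finite Q := Finite.of_surjective φ hφ
  have hinj : Function.Injective (fun ij : Fin 3 × Fin 3 =>
      (⟨r.x1 ^ (ij.1 : ℕ) * r.x2 ^ (ij.2 : ℕ), ⟨_, _, rfl⟩⟩ : r.C)) := by
    rintro ⟨i, j⟩ ⟨k, l⟩ h
    have h1 : r.x1 ^ (i : ℕ) * r.x2 ^ (j : ℕ) = r.x1 ^ (k : ℕ) * r.x2 ^ (l : ℕ) := congrArg Subtype.val h
    have hx : r.x1 ^ 3 = 1 := r.hx1
    have hy : r.x2 ^ 3 = 1 := r.hx2
    have hn : ∀ m : ℕ, 0 < m → m < 3 → ∀ k : ℕ, r.x1 ^ m ≠ r.x2 ^ k := by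
      intro m hm hm3 k hk
      have hS : r.x2 ^ k ∈ Subgroup.zpowers r.x2 := Subgroup.pow_mem _ (Subgroup.mem_zpowers _) k
      -- `x1 ∈ ⟨x2⟩`
      have h2 : r.x1 = r.x2 ^ (k * m) := by
        rw [pow_mul, ← hk, ← pow_mul]
        interval_cases m
        · simp
        · rw [show 2 * 2 = 3 + 1 from rfl, pow_add, hx, one_mul, pow_one]
      have h3 : k * m % 3 < 3 := Nat.mod_lt _ (by norm_num)
      have h4 : r.x1 = r.x2 ^ (k * m % 3) := by
        rw [h2]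
        conv_lhs => rw [← Nat.div_add_mod (k * m) 3, pow_add, pow_mul, hy, one_pow, one_mul]
      generalize k * m % 3 = t at h3 h4
      interval_cases t
      · exact r.n1 (by simpa using h4)
      · exact r.n2 (by simpa using h4)
      · apply r.n3
        rw [h4, eq_inv_iff_mul_eq_one, ← pow_succ, hy]
    have hik : (i : ℕ) = k := by
      by_contra hne
      rcases Nat.lt_or_gt_of_ne hne with hlt | hlt
      · have h2 : r.x1 ^ ((k : ℕ) - i) = r.x2 ^ (j : ℕ) * (r.x2 ^ (l : ℕ))⁻¹ := by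
          have h3 : r.x1 ^ (k : ℕ) = r.x1 ^ (i : ℕ) * r.x1 ^ ((k : ℕ) - i) := by
            rw [← pow_add]; congr 1; omega
          rw [h3, mul_assoc] at h1
          have h4 := mul_left_cancel h1
          rw [h4, mul_inv_cancel_right]
        have h5 : (r.x2 ^ (l : ℕ))⁻¹ = r.x2 ^ (2 * (l : ℕ)) := by
          rw [inv_eq_iff_mul_eq_one, ← pow_add, show (l : ℕ) + 2 * l = 3 * l by ring, pow_mul, hy, one_pow]
        rw [h5, ← pow_add] at h2
        exact hn _ (by omega) (by omega) _ h2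
      · have h2 : r.x1 ^ ((i : ℕ) - k) = r.x2 ^ (l : ℕ) * (r.x2 ^ (j : ℕ))⁻¹ := by
          have h3 : r.x1 ^ (i : ℕ) = r.x1 ^ (k : ℕ) * r.x1 ^ ((i : ℕ) - k) := by
            rw [← pow_add]; congr 1; omega
          rw [h3, mul_assoc] at h1
          have h4 := mul_left_cancel h1
          rw [← h4, mul_inv_cancel_right]
        have h5 : (r.x2 ^ (j : ℕ))⁻¹ = r.x2 ^ (2 * (j : ℕ)) := by
          rw [inv_eq_iff_mul_eq_one, ← pow_add, show (j : ℕ) + 2 * j = 3 * j by ring, pow_mul, hy, one_pow]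
        rw [h5, ← pow_add] at h2
        exact hn _ (by omega) (by omega) _ h2
    rw [hik] at h1
    have h2 := mul_left_cancel h1
    have hjl : (j : ℕ) = l := by
      have ho : orderOf r.x2 = 3 := orderOf_eq_prime hy nx2
      have h3 := pow_eq_pow_iff_modEq.1 h2
      rw [ho] at h3
      have h4 : (j : ℕ) % 3 = l % 3 := h3
      omega
    exact Prod.ext (Fin.ext hik) (Fin.ext hjl)
  have := Nat.card_le_card_of_injective _ hinj
  rw [Nat.card_prod, Nat.card_eq_fintype_card, Fintype.card_fin] at this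
  exact this


/-- the index condition -/
theorem idx_le [Finite H] {P A : Subgroup H} (h : ∀ b ∈ P, b ∉ A → ∀ p ∈ P, p ∈ A ∨ b⁻¹ * p ∈ A ∨ b * p ∈ A) :
    A.relIndex P ≤ 3 := by
  by_cases hPA : P ≤ A
  · rw [Subgroup.relIndex_eq_one.2 hPA]; norm_num
  · obtain ⟨c, hcP, hcA⟩ := Set.not_subset.1 hPA
    have hcP : c ∈ P := hcP
    have hsurj : Function.Surjective (fun i : Fin 3 =>
        (QuotientGroup.mk (⟨![1, c, c⁻¹] i, by fin_cases i <;> simp [hcP]⟩ : P) : P ⧸ A.subgroupOf P)) := by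
      intro x
      induction x using QuotientGroup.induction_on with
      | H p =>
        rcases h c hcP hcA p p.2 with h1 | h1 | h1
        · refine ⟨0, ?_⟩
          rw [QuotientGroup.eq, Subgroup.mem_subgroupOf]
          simpa using h1
        · refine ⟨1, ?_⟩
          rw [QuotientGroup.eq, Subgroup.mem_subgroupOf]
          simpa using h1
        · refine ⟨2, ?_⟩
          rw [QuotientGroup.eq, Subgroup.mem_subgroupOf]
          simpa using h1
    have := Nat.card_le_card_of_surjective _ hsurj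
    rw [Nat.card_eq_fintype_card (α := Fin 3), Fintype.card_fin] at this
    exact this

/-- a central element outside `A` forces commutativity -/
theorem ab_of_central {P A : Subgroup H} (hAc : ∀ a ∈ A, ∀ b ∈ A, a * b = b * a)
    (h : ∀ b ∈ P, b ∉ A → ∀ p ∈ P, p ∈ A ∨ b⁻¹ * p ∈ A ∨ b * p ∈ A) {z : H} (hz : z ∈ P) (hzA : z ∉ A)
    (hzc : ∀ p ∈ P, p * z = z * p) : ∀ x ∈ P, ∀ y ∈ P, x * y = y * x := by
  have key : ∀ x ∈ P, ∃ k : ℤ, ∃ a ∈ A, x = z ^ k * a := by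
    intro x hx
    rcases h z hz hzA x hx with h1 | h1 | h1
    · exact ⟨0, x, h1, by simp⟩
    · exact ⟨1, _, h1, by group⟩
    · exact ⟨-1, _, h1, by group⟩
  intro x hx y hy
  obtain ⟨k, a, ha, e1⟩ := key x hx
  obtain ⟨l, b, hb, e2⟩ := key y hy
  have hzc' : ∀ p ∈ P, Commute p z := fun p hp => hzc p hp
  have ha' : Commute a z := by
    have h1 : a = (z ^ k)⁻¹ * x := by rw [e1]; group
    rw [h1]
    exact hzc' _ (P.mul_mem (P.inv_mem (P.zpow_mem hz k)) hx)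
  have hb' : Commute b z := by
    have h1 : b = (z ^ l)⁻¹ * y := by rw [e2]; group
    rw [h1]
    exact hzc' _ (P.mul_mem (P.inv_mem (P.zpow_mem hz l)) hy)
  have hab : Commute a b := hAc a ha b hb
  have h1 : Commute (z ^ k * a) (z ^ l * b) :=
    ((((Commute.refl z).zpow_zpow k l).mul_right (hb'.symm.zpow_left k))).mul_left
      (((ha'.zpow_right l)).mul_right hab)
  rw [e1, e2]; exact h1.eq

/-- the commuting case -/
theorem comm_case [Finite H] (r : Rel Q) (φ : H →* Q) {P : Subgroup H} (hP : IsPGroup 3 P) (hPm : P.map φ = r.C)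
    {g : H} (hg : φ g = r.ρ) (hgP : ∀ x ∈ P, g * x * g⁻¹ ∈ P)
    (hlift : ∀ σ : Q, (∀ x ∈ r.C, σ * x * σ⁻¹ ∈ r.C) → ∃ s : H, φ s = σ ∧ ∀ x ∈ P, s * x * s⁻¹ ∈ P)
    {A : Subgroup H} (hAP : A ≤ P) (hAc : ∀ a ∈ A, ∀ b ∈ A, a * b = b * a)
    (hAi : ∀ b ∈ P, b ∉ A → ∀ p ∈ P, p ∈ A ∨ b⁻¹ * p ∈ A ∨ b * p ∈ A) {a : H} (haA : a ∈ A)
    (haN : g * a * g⁻¹ ∉ A) (hab : a * (g * a * g⁻¹) = (g * a * g⁻¹) * a) (ha3 : a ^ 3 = 1)
    (hcen : ∀ x ∈ A, x * (g * a * g⁻¹) = (g * a * g⁻¹) * x → x ∈ Subgroup.zpowers a)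
    (hrefl : ∀ s : H, s * a * s⁻¹ = a → s * (g * a * g⁻¹) * s⁻¹ ≠ (g * a * g⁻¹)⁻¹) (h9 : 9 ≤ Nat.card r.C) : False := by
  classical
  haveI : Fact (Nat.Prime 3) := ⟨Nat.prime_three⟩
  set b := g * a * g⁻¹ with hb
  have hbP : b ∈ P := hgP a (hAP haA)
  have ha1 : a ≠ 1 := by
    intro h
    apply haN
    rw [hb, h, mul_one, mul_inv_cancel]; exact one_mem _
  have hoa : orderOf a = 3 := orderOf_eq_prime ha3 ha1
  have hgPn : g ∈ Subgroup.normalizer (P : Set H) := Cfsg.Agent.H51.SCFrob.mem_normalizer_of_le hgP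
  have hgP' : ∀ x ∈ P, g⁻¹ * x * g ∈ P := by
    intro x hx
    have := (Subgroup.mem_normalizer_iff.1 (inv_mem hgPn) x).1 hx
    simpa using this
  -- `P` is abelian
  have hPab : ∀ x ∈ P, ∀ y ∈ P, x * y = y * x := by
    by_contra hnab
    haveI : Nontrivial P := ⟨⟨⟨a, hAP haA⟩, 1, fun h => ha1 (congrArg Subtype.val h)⟩⟩
    haveI := hP.center_nontrivial
    obtain ⟨z, hz⟩ := exists_ne (1 : Subgroup.center P)
    have hzc : ∀ p ∈ P, p * ((z : P) : H) = (z : P) * p := by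
      intro p hp
      exact congrArg Subtype.val (Subgroup.mem_center_iff.1 z.2 ⟨p, hp⟩)
    have hzA : ((z : P) : H) ∈ A := by
      by_contra hzA
      exact hnab (ab_of_central hAc hAi (z : P).2 hzA hzc)
    have hz1 : ((z : P) : H) ≠ 1 := fun h => hz (Subtype.ext (Subtype.ext h))
    have h1 := hcen _ hzA (hzc b hbP).symm
    -- `a` is a power of `z`
    obtain ⟨k, hk⟩ := h1
    have hk' : a ^ k = ((z : P) : H) := hk
    have h2 : a ∈ Subgroup.zpowers ((z : P) : H) := by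
      have h3 : a ^ (k % 3) = ((z : P) : H) := by
        rw [← hk']
        have h3 := zpow_mod_orderOf a k
        rw [hoa] at h3
        exact_mod_cast h3
      have h4 : 0 ≤ k % 3 := Int.emod_nonneg _ (by norm_num)
      have h5 : k % 3 < 3 := Int.emod_lt_of_pos _ (by norm_num)
      generalize k % 3 = m at h3 h4 h5
      interval_cases m
      · exact absurd h3.symm (by simpa using hz1)
      · rw [zpow_one] at h3
        rw [h3]; exact Subgroup.mem_zpowers _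
      · have h6 : a = ((z : P) : H) ^ 2 := by
          rw [← h3]
          have : (a ^ (2 : ℤ)) ^ 2 = a ^ 3 * a := by
            have e : a ^ (2 : ℤ) = a ^ 2 := by norm_cast
            rw [e, ← pow_mul, ← pow_succ]
          rw [this, ha3, one_mul]
        rw [h6]; exact Subgroup.pow_mem _ (Subgroup.mem_zpowers _) 2
    have hac : ∀ p ∈ P, p * a = a * p := by
      intro p hp
      obtain ⟨l, hl⟩ := h2
      have hl' : ((z : P) : H) ^ l = a := hl
      rw [← hl']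
      exact ((show Commute p ((z : P) : H) from hzc p hp).zpow_right l).eq
    have hbc : ∀ p ∈ P, p * b = b * p := by
      intro p hp
      have h3 := hac _ (hgP' p hp)
      calc p * (g * a * g⁻¹) = g * (g⁻¹ * p * g * a) * g⁻¹ := by group
        _ = g * (a * (g⁻¹ * p * g)) * g⁻¹ := by rw [h3]
        _ = g * a * g⁻¹ * p := by group
    exact hnab (ab_of_central hAc hAi hbP haN hbc)
  -- `P` has order nine
  have hAz : A ≤ Subgroup.zpowers a := fun x hx => hcen x hx (hPab x (hAP hx) b hbP)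
  have hcA : Nat.card A ≤ 3 := by
    have h1 : Nat.card A ≤ Nat.card (Subgroup.zpowers a) := Subgroup.card_le_of_le hAz
    rw [Nat.card_zpowers, hoa] at h1
    exact h1
  have hcP : Nat.card P ≤ 9 := by
    have h1 := Subgroup.card_mul_index (A.subgroupOf P)
    rw [Nat.card_congr (Subgroup.subgroupOfEquivOfLe hAP).toEquiv] at h1
    have h2 := idx_le hAi
    calc Nat.card P = Nat.card A * A.relIndex P := h1.symm
      _ ≤ 3 * 3 := Nat.mul_le_mul hcA h2
      _ = 9 := rfl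
  have hinj : ∀ x ∈ P, ∀ y ∈ P, φ x = φ y → x = y := by
    have h1 : Function.Surjective (fun x : P => (⟨φ x, ⟨x, x.2, rfl⟩⟩ : P.map φ)) := by
      rintro ⟨_, x, hx, rfl⟩
      exact ⟨⟨x, hx⟩, rfl⟩
    have h2 : Nat.card P = Nat.card (P.map φ) := by
      apply le_antisymm
      · rw [hPm]; exact hcP.trans h9
      · exact Nat.card_le_card_of_surjective _ h1
    have h3 : Function.Injective (fun x : P => (⟨φ x, ⟨x, x.2, rfl⟩⟩ : P.map φ)) :=
      ((Nat.bijective_iff_surjective_and_card _).2 ⟨h1, h2⟩).1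
    intro x hx y hy h
    exact congrArg Subtype.val (@h3 ⟨x, hx⟩ ⟨y, hy⟩ (Subtype.ext h))
  -- contradiction from a reflection
  have fin : ∀ σ : Q, (∀ x ∈ r.C, σ * x * σ⁻¹ ∈ r.C) → MulAut.conj σ (φ a) = φ a → MulAut.conj σ (φ b) = (φ b)⁻¹ → False := by
    intro σ hσ h1 h2
    rw [MulAut.conj_apply] at h1 h2
    obtain ⟨s, hs, hsP⟩ := hlift σ hσ
    apply hrefl s
    · apply hinj _ (hsP a (hAP haA)) _ (hAP haA)
      rw [map_mul, map_mul, map_inv, hs, h1]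
    · apply hinj _ (hsP b hbP) _ (P.inv_mem hbP)
      rw [map_mul, map_mul, map_inv, map_inv, hs, h2]
  have hφb : φ b = MulAut.conj r.ρ (φ a) := by rw [MulAut.conj_apply, hb, map_mul, map_mul, map_inv, hg]
  obtain ⟨i, j, hij⟩ : φ a ∈ r.C := by rw [← hPm]; exact ⟨a, hAP haA, rfl⟩
  have hφa1 : φ a ≠ 1 := by
    intro h
    exact ha1 (hinj a (hAP haA) 1 (one_mem _) (by rw [h, map_one]))
  -- conjugation maps
  have cρ1 : MulAut.conj r.ρ r.x1 = r.x2 := by rw [MulAut.conj_apply, r.hρ1]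
  have cρ2 : MulAut.conj r.ρ r.x2 = r.x1⁻¹ := by rw [MulAut.conj_apply, r.hρ2]
  have cτ1 : MulAut.conj r.τ r.x1 = r.x1⁻¹ := by rw [MulAut.conj_apply, r.hτ1]
  have cτ2 : MulAut.conj r.τ r.x2 = r.x2 := by rw [MulAut.conj_apply, r.hτ2]
  have nρ := r.ρ_norm
  have nτ := r.τ_norm
  have ncomp : ∀ σ σ' : Q, (∀ x ∈ r.C, σ * x * σ⁻¹ ∈ r.C) → (∀ x ∈ r.C, σ' * x * σ'⁻¹ ∈ r.C) →
      ∀ x ∈ r.C, (σ * σ') * x * (σ * σ')⁻¹ ∈ r.C := by
    intro σ σ' h1 h2 x hx
    have e : (σ * σ') * x * (σ * σ')⁻¹ = σ * (σ' * x * σ'⁻¹) * σ⁻¹ := by group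
    rw [e]; exact h1 _ (h2 x hx)
  have hcm : ∀ k l : ℕ, Commute (r.x1 ^ k) (r.x2 ^ l) := fun k l => (show Commute r.x1 r.x2 from r.hc).pow_pow k l
  have hmod1 : ∀ k : ℕ, r.x1 ^ k = r.x1 ^ (k % 3) := fun k => by
    conv_lhs => rw [← Nat.div_add_mod k 3, pow_add, pow_mul, r.hx1, one_pow, one_mul]
  have hmod2 : ∀ k : ℕ, r.x2 ^ k = r.x2 ^ (k % 3) := fun k => by
    conv_lhs => rw [← Nat.div_add_mod k 3, pow_add, pow_mul, r.hx2, one_pow, one_mul]
  rw [hmod1 i, hmod2 j] at hij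
  have hi := Nat.mod_lt i (show 0 < 3 by norm_num)
  have hj := Nat.mod_lt j (show 0 < 3 by norm_num)
  generalize i % 3 = i at hij hi
  generalize j % 3 = j at hij hj
  by_cases hj0 : j = 0
  · subst hj0
    rw [pow_zero, mul_one] at hij
    apply fin (r.τ * (r.ρ * r.ρ)) (ncomp _ _ nτ (ncomp _ _ nρ nρ))
    · simp only [hij, map_mul, MulAut.mul_apply, map_pow, map_inv, cρ1, cρ2, cτ1, cτ2, inv_inv]
    · simp only [hφb, hij, map_mul, MulAut.mul_apply, map_pow, map_inv, cρ1, cρ2, cτ1, cτ2, inv_inv, inv_pow]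
  by_cases hi0 : i = 0
  · subst hi0
    rw [pow_zero, one_mul] at hij
    apply fin r.τ nτ
    · simp only [hij, map_mul, MulAut.mul_apply, map_pow, map_inv, cρ1, cρ2, cτ1, cτ2, inv_inv]
    · simp only [hφb, hij, map_mul, MulAut.mul_apply, map_pow, map_inv, cρ1, cρ2, cτ1, cτ2, inv_inv, inv_pow]
  by_cases hij' : i = j
  · subst hij'
    apply fin (r.τ * r.ρ) (ncomp _ _ nτ nρ)
    · simp only [hij, map_mul, MulAut.mul_apply, map_pow, map_inv, cρ1, cρ2, cτ1, cτ2, inv_inv]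
      exact (hcm i i).symm.eq
    · simp only [hφb, hij, map_mul, MulAut.mul_apply, map_pow, map_inv, cρ1, cρ2, cτ1, cτ2, inv_inv, inv_pow, mul_inv_rev]
  · have hsum : i + j = 3 := by omega
    have hx : r.x2 ^ j = (r.x2 ^ i)⁻¹ := by
      rw [eq_inv_iff_mul_eq_one, ← pow_add, add_comm, hsum, r.hx2]
    rw [hx] at hij
    apply fin (r.ρ * r.τ) (ncomp _ _ nρ nτ)
    · simp only [hij, map_mul, MulAut.mul_apply, map_pow, map_inv, cρ1, cρ2, cτ1, cτ2, inv_inv, inv_pow]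
      exact ((hcm i i).inv_right).symm.eq
    · simp only [hφb, hij, map_mul, MulAut.mul_apply, map_pow, map_inv, cρ1, cρ2, cτ1, cτ2, inv_inv, inv_pow, mul_inv_rev]

/-- the main theorem: no section with the relations `Rel` (second version) -/
theorem main2 [Finite H] [IsSimpleGroup Q] (r : Rel Q) (φ : H →* Q) (hφ : Function.Surjective φ)
    (Tor : Subgroup H → Prop) (tor_mono : ∀ A B : Subgroup H, A ≤ B → Tor B → Tor A)
    (tor_comm : ∀ A, Tor A → ∀ a ∈ A, ∀ b ∈ A, a * b = b * a)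
    (tor6 : ∀ A, Tor A → ∀ g : H, (∀ x ∈ A, g * x * g⁻¹ ∈ A) → ∀ x ∈ A, g ^ 6 * x = x * g ^ 6)
    (key : ∀ P : Subgroup H, IsPGroup 3 P → ∃ A ≤ P, Tor A ∧ (∀ p ∈ P, ∀ a ∈ A, p * a * p⁻¹ ∈ A) ∧
      (∀ b ∈ P, b ∉ A → ∀ p ∈ P, p ∈ A ∨ b⁻¹ * p ∈ A ∨ b * p ∈ A) ∧
      ∀ a ∈ A, ∀ g : H, g * a * g⁻¹ ∈ P → g * a * g⁻¹ ∉ A → a * (g * a * g⁻¹) = (g * a * g⁻¹) * a →
        a ^ 3 = 1 ∧ (∀ x ∈ A, x * (g * a * g⁻¹) = (g * a * g⁻¹) * x → x ∈ Subgroup.zpowers a) ∧
        ∀ s : H, s * a * s⁻¹ = a → s * (g * a * g⁻¹) * s⁻¹ ≠ (g * a * g⁻¹)⁻¹) : False := by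
  classical
  obtain ⟨P, hP, hPm, hPn, hPs⟩ := lift_norm' φ r.C_pgroup (by rw [MonoidHom.range_eq_top.2 hφ]; exact le_top)
  obtain ⟨g, hg, hgP⟩ := hPn r.ρ (by rw [MonoidHom.range_eq_top.2 hφ]; trivial) r.ρ_norm
  obtain ⟨A, hAP, hA, hAn, hAi, hAc⟩ := key P hP
  -- Claim I
  have claim1 : ∀ Z : Subgroup H, Z ≤ P → Tor Z → (∀ z ∈ Z, g * z * g⁻¹ ∈ Z) → ∀ z ∈ Z, φ z = 1 := by
    intro Z hZP hZ hgZ z hz
    by_contra h1
    have h2 : r.x1 ∈ Z.map φ := by
      refine r.irr (S := Z.map φ) ?_ ?_ ⟨z, hz, rfl⟩ h1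
      · rw [← hPm]; exact Subgroup.map_mono hZP
      · rintro _ ⟨y, hy, rfl⟩
        refine ⟨_, hgZ y hy, ?_⟩
        rw [map_mul, map_mul, map_inv, hg]
    obtain ⟨y, hy, hyx⟩ := h2
    have h3 := congrArg φ (tor6 Z hZ g hgZ y hy)
    rw [map_mul, map_mul, map_pow, hg, hyx] at h3
    exact r.ρ6 h3
  obtain ⟨p1, hp1, hp1x⟩ : r.x1 ∈ P.map φ := by rw [hPm]; exact r.x1_mem
  obtain ⟨p2, hp2, hp2x⟩ : r.x2 ∈ P.map φ := by rw [hPm]; exact r.x2_mem
  have nx2 : r.x2 ≠ 1 := by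
    intro h
    apply r.n1
    have := r.hρ2
    rw [h, mul_one, mul_inv_cancel] at this
    exact (inv_eq_one.1 this.symm)
  -- Claim II
  obtain ⟨a, haA, haN⟩ : ∃ a ∈ A, g * a * g⁻¹ ∉ A := by
    by_contra hcon
    push_neg at hcon
    have h1 := claim1 A hAP hA hcon
    by_cases h2 : p1 ∈ A
    · exact r.n1 (by rw [← hp1x, h1 p1 h2])
    · rcases hAi p1 hp1 h2 p2 hp2 with h3 | h3 | h3
      · exact nx2 (by rw [← hp2x, h1 p2 h3])
      · have := h1 _ h3
        rw [map_mul, map_inv, hp1x, hp2x, inv_mul_eq_one] at this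
        exact r.n2 this
      · have := h1 _ h3
        rw [map_mul, hp1x, hp2x] at this
        exact r.n3 (eq_inv_of_mul_eq_one_left this)
  set b := g * a * g⁻¹ with hb
  have hbP : b ∈ P := hgP a (hAP haA)
  have hab : a * b ≠ b * a := by
    intro hcm
    obtain ⟨ha3, hcen, hrefl⟩ := hAc a haA g hbP haN hcm
    exact comm_case r φ hP hPm hg hgP (fun σ hσ => hPn σ (by rw [MonoidHom.range_eq_top.2 hφ]; trivial) hσ) hAP
      (tor_comm A hA) hAi haA haN hcm ha3 hcen hrefl (nine_le r φ hφ)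
  -- the centre of `P`
  set Z : Subgroup H := P ⊓ Subgroup.centralizer (P : Set H) with hZ
  have memZ : ∀ z, z ∈ Z ↔ z ∈ P ∧ ∀ p ∈ P, p * z = z * p := by
    intro z
    rw [hZ, Subgroup.mem_inf, Subgroup.mem_centralizer_iff]
    rfl
  -- `g` normalises `P` in the strong sense
  have hgPn : g ∈ Subgroup.normalizer (P : Set H) := Cfsg.Agent.H51.SCFrob.mem_normalizer_of_le hgP
  have hgP' : ∀ x ∈ P, g⁻¹ * x * g ∈ P := by
    intro x hx
    have := (Subgroup.mem_normalizer_iff.1 (inv_mem hgPn) x).1 hx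
    simpa using this
  set M : Subgroup H := P ⊓ φ.ker with hM
  -- the conjugate of `A`
  set B : Subgroup H := A.map (MulAut.conj g).toMonoidHom with hB
  have memB : ∀ y, y ∈ B ↔ g⁻¹ * y * g ∈ A := by
    intro y
    constructor
    · rintro ⟨x, hx, rfl⟩
      have : g⁻¹ * (g * x * g⁻¹) * g = x := by group
      change g⁻¹ * (g * x * g⁻¹) * g ∈ A
      rw [this]; exact hx
    · intro h
      refine ⟨_, h, ?_⟩
      change g * (g⁻¹ * y * g) * g⁻¹ = y
      group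
  have hBP : B ≤ P := by
    intro y hy
    have h1 := hgP _ (hAP ((memB y).1 hy))
    have : g * (g⁻¹ * y * g) * g⁻¹ = y := by group
    rwa [this] at h1
  have hbB : b ∈ B := (memB b).2 (by rw [hb]; have : g⁻¹ * (g * a * g⁻¹) * g = a := by group
                                     rw [this]; exact haA)
  -- the index of `A ⊓ B` in `P` is at most nine
  have hidx : ∀ A' : Subgroup H, A' ≤ P → (∀ b ∈ P, b ∉ A' → ∀ p ∈ P, p ∈ A' ∨ b⁻¹ * p ∈ A' ∨ b * p ∈ A') →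
      A'.relIndex P ≤ 3 := by
    intro A' hA' h
    by_cases hPA : P ≤ A'
    · rw [Subgroup.relIndex_eq_one.2 hPA]; norm_num
    · obtain ⟨c, hcP, hcA⟩ := Set.not_subset.1 hPA
      have hcP : c ∈ P := hcP
      have hsurj : Function.Surjective (fun i : Fin 3 =>
          (QuotientGroup.mk (⟨![1, c, c⁻¹] i, by fin_cases i <;> simp [hcP]⟩ : P) : P ⧸ A'.subgroupOf P)) := by
        intro x
        induction x using QuotientGroup.induction_on with
        | H p =>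
          rcases h c hcP hcA p p.2 with h1 | h1 | h1
          · refine ⟨0, ?_⟩
            rw [QuotientGroup.eq, Subgroup.mem_subgroupOf]
            simpa using h1
          · refine ⟨1, ?_⟩
            rw [QuotientGroup.eq, Subgroup.mem_subgroupOf]
            simpa using h1
          · refine ⟨2, ?_⟩
            rw [QuotientGroup.eq, Subgroup.mem_subgroupOf]
            simpa using h1
      have := Nat.card_le_card_of_surjective _ hsurj
      rw [Nat.card_eq_fintype_card (α := Fin 3), Fintype.card_fin] at this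
      exact this
  have hAidx := hidx A hAP hAi
  have hBidx : B.relIndex P ≤ 3 := by
    apply hidx B hBP
    intro c hcP hcB p hp
    have h1 := hAi (g⁻¹ * c * g) (hgP' c hcP) (fun h => hcB ((memB c).2 h)) (g⁻¹ * p * g) (hgP' p hp)
    rcases h1 with h1 | h1 | h1
    · left; exact (memB p).2 h1
    · right; left
      rw [memB]
      have : g⁻¹ * (c⁻¹ * p) * g = (g⁻¹ * c * g)⁻¹ * (g⁻¹ * p * g) := by group
      rw [this]; exact h1
    · right; right
      rw [memB]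
      have : g⁻¹ * (c * p) * g = (g⁻¹ * c * g) * (g⁻¹ * p * g) := by group
      rw [this]; exact h1
  -- `A ⊓ B` is central
  have hD_central : ∀ z ∈ A ⊓ B, ∀ p ∈ P, p * z = z * p := by
    rintro z ⟨hzA, hzB⟩ p hp
    have h1 : ∀ x ∈ A, x * z = z * x := fun x hx => tor_comm A hA x hx z hzA
    have h2 : b * z = z * b := by
      have h3 := tor_comm A hA a haA _ ((memB z).1 hzB)
      have h4 : g * (a * (g⁻¹ * z * g)) * g⁻¹ = g * (g⁻¹ * z * g * a) * g⁻¹ := by rw [h3]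
      calc b * z = g * (a * (g⁻¹ * z * g)) * g⁻¹ := by rw [hb]; group
        _ = g * (g⁻¹ * z * g * a) * g⁻¹ := h4
        _ = z * b := by rw [hb]; group
    rcases hAi b hbP haN p hp with h3 | h3 | h3
    · exact h1 p h3
    · have h4 := h1 _ h3
      calc p * z = b * (b⁻¹ * p * z) := by group
        _ = b * (z * (b⁻¹ * p)) := by rw [h4]
        _ = (b * z) * (b⁻¹ * p) := by group
        _ = (z * b) * (b⁻¹ * p) := by rw [h2]
        _ = z * p := by group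
    · have h4 := h1 _ h3
      have h5 : b⁻¹ * z = z * b⁻¹ := by
        calc b⁻¹ * z = b⁻¹ * (z * b) * b⁻¹ := by group
          _ = b⁻¹ * (b * z) * b⁻¹ := by rw [h2]
          _ = z * b⁻¹ := by group
      calc p * z = b⁻¹ * (b * p * z) := by group
        _ = b⁻¹ * (z * (b * p)) := by rw [h4]
        _ = (b⁻¹ * z) * (b * p) := by group
        _ = (z * b⁻¹) * (b * p) := by rw [h5]
        _ = z * p := by group
  -- the centre is contained in `A`
  have hZA : Z ≤ A := by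
    intro z hz
    obtain ⟨hzP, hzc⟩ := (memZ z).1 hz
    by_contra hzA
    apply hab
    have hAa : ∀ x ∈ A, a * x = x * a := fun x hx => tor_comm A hA a haA x hx
    rcases hAi z hzP hzA b hbP with h3 | h3 | h3
    · exact hAa _ h3
    · have h4 := hAa _ h3
      have h5 := hzc a (hAP haA)
      calc a * b = a * z * (z⁻¹ * b) := by group
        _ = z * a * (z⁻¹ * b) := by rw [h5]
        _ = z * (a * (z⁻¹ * b)) := by group
        _ = z * (z⁻¹ * b * a) := by rw [h4]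
        _ = b * a := by group
    · have h4 := hAa _ h3
      have h5 := hzc a (hAP haA)
      have h6 : a * z⁻¹ = z⁻¹ * a := by
        calc a * z⁻¹ = z⁻¹ * (z * a) * z⁻¹ := by group
          _ = z⁻¹ * (a * z) * z⁻¹ := by rw [h5]
          _ = z⁻¹ * a := by group
      calc a * b = a * z⁻¹ * (z * b) := by group
        _ = z⁻¹ * a * (z * b) := by rw [h6]
        _ = z⁻¹ * (a * (z * b)) := by group
        _ = z⁻¹ * (z * b * a) := by rw [h4]
        _ = b * a := by group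
  have hDZ : A ⊓ B ≤ Z := fun z hz => (memZ z).2 ⟨hAP hz.1, hD_central z hz⟩
  have hgZ : ∀ z ∈ Z, g * z * g⁻¹ ∈ Z := by
    intro z hz
    obtain ⟨hzP, hzc⟩ := (memZ z).1 hz
    refine (memZ _).2 ⟨hgP z hzP, fun p hp => ?_⟩
    have h1 := hzc _ (hgP' p hp)
    calc p * (g * z * g⁻¹) = g * (g⁻¹ * p * g * z) * g⁻¹ := by group
      _ = g * (z * (g⁻¹ * p * g)) * g⁻¹ := by rw [h1]
      _ = g * z * g⁻¹ * p := by group
  have hTorZ : Tor Z := tor_mono Z A hZA hA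
  have hZker : ∀ z ∈ Z, φ z = 1 := claim1 Z (fun z hz => ((memZ z).1 hz).1) hTorZ hgZ
  -- `M` is central
  have hcard : Nat.card r.C ≤ M.relIndex P := by
    have e1 : M.relIndex P = Nat.card (P.map φ) := by
      rw [hM, Subgroup.inf_relIndex_left]
      rw [Subgroup.relIndex_ker]
    rw [e1, hPm]
  have hC9 : 9 ≤ Nat.card r.C := nine_le r φ hφ
  have hMD : M ≤ A ⊓ B := by
    have h1 : (A ⊓ B).relIndex P ≤ 9 := by
      refine (Subgroup.relIndex_inf_le).trans ?_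
      calc A.relIndex P * B.relIndex P ≤ 3 * 3 := Nat.mul_le_mul hAidx hBidx
        _ = 9 := rfl
    have hDM : A ⊓ B ≤ M := by
      intro z hz
      exact ⟨hAP hz.1, hZker z (hDZ hz)⟩
    have h2 := Subgroup.relIndex_mul_relIndex (A ⊓ B) M P hDM inf_le_left
    have h3 : (A ⊓ B).relIndex M ≤ 1 := by
      by_contra h
      have h4 : 2 ≤ (A ⊓ B).relIndex M := by omega
      have h5 : 9 ≤ M.relIndex P := hC9.trans hcard
      have : 2 * 9 ≤ (A ⊓ B).relIndex M * M.relIndex P := Nat.mul_le_mul h4 h5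
      omega
    have h4 : (A ⊓ B).relIndex M = 1 := by
      have : (A ⊓ B).relIndex M ≠ 0 := Subgroup.index_ne_zero_of_finite
      omega
    exact Subgroup.relIndex_eq_one.1 h4
  have hMc : ∀ z ∈ M, ∀ p ∈ P, p * z = z * p := fun z hz => hD_central z (hMD hz)
  have hTorM : Tor M := tor_mono M A (fun z hz => (hMD hz).1) hA
  have hM3 : IsPGroup 3 M := hP.to_le inf_le_left
  -- lifts normalising `M`
  have hlift : ∀ q : Q, ∃ n : H, φ n = q ∧ ∀ z ∈ M, n * z * n⁻¹ ∈ M := by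
    intro q
    obtain ⟨h, rfl⟩ := hφ q
    obtain ⟨y, hy, hyR⟩ := hPs (M.map (MulAut.conj h).toMonoidHom) (hM3.map _) (by
      rintro _ ⟨_, ⟨z, hz, rfl⟩, rfl⟩
      have : φ (h * z * h⁻¹) = 1 := by
        rw [map_mul, map_mul, map_inv, show φ z = 1 from hz.2]; simp
      change φ (h * z * h⁻¹) ∈ r.C
      rw [this]; exact one_mem _)
    obtain ⟨p, hp, hpy⟩ : φ y ∈ P.map φ := by rw [hPm]; exact hy
    refine ⟨p⁻¹ * (y * h), ?_, ?_⟩
    · rw [map_mul, map_inv, map_mul, hpy, inv_mul_cancel_left]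
    · intro z hz
      have h1 : y * (h * z * h⁻¹) * y⁻¹ ∈ P := hyR _ ⟨z, hz, rfl⟩
      have h2 : y * (h * z * h⁻¹) * y⁻¹ ∈ M := by
        refine ⟨h1, ?_⟩
        change φ _ = 1
        rw [map_mul, map_mul, map_mul, map_mul, map_inv, map_inv, show φ z = 1 from hz.2]; simp
      have h3 := hMc _ h2 p hp
      have h4 : p⁻¹ * (y * h) * z * (p⁻¹ * (y * h))⁻¹ = p⁻¹ * (y * (h * z * h⁻¹) * y⁻¹) * p := by group
      have h5 : p⁻¹ * (y * (h * z * h⁻¹) * y⁻¹) * p = y * (h * z * h⁻¹) * y⁻¹ := by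
        rw [mul_assoc p⁻¹, ← h3]; group
      rw [h4, h5]; exact h2
  -- the centraliser of `M` covers `Q`
  set C1 : Subgroup H := Subgroup.centralizer (M : Set H) with hC1
  have memC1 : ∀ c, c ∈ C1 ↔ ∀ z ∈ M, z * c = c * z := by
    intro c; rw [hC1, Subgroup.mem_centralizer_iff]; rfl
  have hQ1 : (C1.map φ).Normal := by
    constructor
    rintro _ ⟨c, hc, rfl⟩ q
    obtain ⟨n, rfl, hn⟩ := hlift q
    have hnN : n ∈ Subgroup.normalizer (M : Set H) := Cfsg.Agent.H51.SCFrob.mem_normalizer_of_le hn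
    refine ⟨n * c * n⁻¹, ?_, by simp⟩
    apply (memC1 _).2
    intro z hz
    have h1 : n⁻¹ * z * n ∈ M := by
      have := (Subgroup.mem_normalizer_iff.1 (inv_mem hnN) z).1 hz
      simpa using this
    have h2 := (memC1 c).1 hc _ h1
    calc z * (n * c * n⁻¹) = n * (n⁻¹ * z * n * c) * n⁻¹ := by group
      _ = n * (c * (n⁻¹ * z * n)) * n⁻¹ := by rw [h2]
      _ = n * c * n⁻¹ * z := by group
  have htop : C1.map φ = ⊤ := by
    rcases hQ1.eq_bot_or_eq_top with h | h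
    · exfalso
      obtain ⟨n, hn, hn'⟩ := hlift r.σ0
      have h1 : n ^ 6 ∈ C1 := (memC1 _).2 fun z hz => (tor6 M hTorM n hn' z hz).symm
      have h2 : φ (n ^ 6) ∈ C1.map φ := ⟨_, h1, rfl⟩
      rw [h, Subgroup.mem_bot, map_pow, hn] at h2
      exact r.hσ h2
    · exact h
  let φ1 : C1 →* Q := φ.comp C1.subtype
  have hφ1 : φ1.range = ⊤ := by
    rw [eq_top_iff]
    intro q _
    have : q ∈ C1.map φ := by rw [htop]; trivial
    obtain ⟨c, hc, rfl⟩ := this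
    exact ⟨⟨c, hc⟩, rfl⟩
  obtain ⟨P1, hP1, hP1m, hP1n, hP1s⟩ := lift_norm' φ1 r.C_pgroup (by rw [hφ1]; exact le_top)
  obtain ⟨t, ht, htP1⟩ := hP1n r.τ (by rw [hφ1]; trivial) r.τ_norm
  -- `P1 ∩ ker ≤ M`
  have hP1M : ∀ k ∈ P1, φ (k : H) = 1 → (k : H) ∈ M := by
    intro k hk hk1
    -- the subgroup generated by `M` and `k`
    have hcomm : ∀ z ∈ M, Commute z (k : H) := fun z hz => (memC1 _).1 k.2 z hz
    set R : Subgroup H := M ⊔ Subgroup.zpowers (k : H) with hR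
    have hRp : IsPGroup 3 R := by
      have h1 : IsPGroup 3 (Subgroup.zpowers (k : H)) := by
        have h2 : IsPGroup 3 (P1.map C1.subtype) := hP1.map _
        refine h2.to_le ?_
        rw [Subgroup.zpowers_le]
        exact ⟨k, hk, rfl⟩
      refine IsPGroup.to_sup_of_normal_right' hM3 h1 ?_
      intro z hz
      apply Cfsg.Agent.H51.SCFrob.mem_normalizer_of_le
      rintro _ ⟨i, rfl⟩
      have h3 : Commute z ((k : H) ^ i) := (hcomm z hz).zpow_right i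
      have h4 : z * (k : H) ^ i * z⁻¹ = (k : H) ^ i := by rw [h3.eq, mul_inv_cancel_right]
      simp only
      rw [h4]
      exact Subgroup.zpow_mem _ (Subgroup.mem_zpowers _) i
    have hRk : R ≤ φ.ker := by
      rw [hR, sup_le_iff, Subgroup.zpowers_le]
      exact ⟨inf_le_right, hk1⟩
    obtain ⟨y, -, hyR⟩ := hPs R hRp (by
      rintro _ ⟨v, hv, rfl⟩
      rw [show φ v = 1 from hRk hv]; exact one_mem _)
    have hRM : ∀ v ∈ R, y * v * y⁻¹ ∈ M := by
      intro v hv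
      refine ⟨hyR v hv, ?_⟩
      change φ _ = 1
      rw [map_mul, map_mul, map_inv, show φ v = 1 from hRk hv]; simp
    have hinj : Function.Injective (fun v : R => (⟨y * v * y⁻¹, hRM v v.2⟩ : M)) := by
      intro v w hvw
      have h1 : y * (v : H) * y⁻¹ = y * w * y⁻¹ := congrArg Subtype.val hvw
      exact Subtype.ext (mul_left_cancel (mul_right_cancel h1))
    have hcard' := Nat.card_le_card_of_injective _ hinj
    have hMR : M = R := Subgroup.eq_of_le_of_card_ge le_sup_left hcard'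
    rw [hMR]
    exact Subgroup.mem_sup_right (Subgroup.mem_zpowers _)
  have hcM : ∀ m ∈ M, ∀ c : C1, m * (c : H) = c * m := fun m hm c => (memC1 _).1 c.2 m hm
  obtain ⟨u1, hu1, hu1x⟩ : r.x1 ∈ P1.map φ1 := by rw [hP1m]; exact r.x1_mem
  obtain ⟨u2, hu2, hu2x⟩ : r.x2 ∈ P1.map φ1 := by rw [hP1m]; exact r.x2_mem
  have hφ1' : ∀ c : C1, φ (c : H) = φ1 c := fun c => rfl
  -- central elements of `C1`
  have hcent : ∀ m : C1, (m : H) ∈ M → ∀ c : C1, m * c = c * m := fun m hm c => Subtype.ext (hcM m hm c)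
  set k1 : C1 := u1 * (t * u1 * t⁻¹) with hk1
  have hk1M : (k1 : H) ∈ M := by
    apply hP1M k1 (P1.mul_mem hu1 (htP1 u1 hu1))
    rw [hφ1', hk1, map_mul, map_mul, map_mul, map_inv, hu1x, ht, r.hτ1, mul_inv_cancel]
  set k2 : C1 := u2⁻¹ * (t * u2 * t⁻¹) with hk2
  have hk2M : (k2 : H) ∈ M := by
    apply hP1M k2 (P1.mul_mem (P1.inv_mem hu2) (htP1 u2 hu2))
    rw [hφ1', hk2, map_mul, map_mul, map_mul, map_inv, map_inv, hu2x, ht, r.hτ2, inv_mul_cancel]
  set c : C1 := u1 * u2 * u1⁻¹ * u2⁻¹ with hcdef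
  have hcP1 : c ∈ P1 := P1.mul_mem (P1.mul_mem (P1.mul_mem hu1 hu2) (P1.inv_mem hu1)) (P1.inv_mem hu2)
  have hcM' : (c : H) ∈ M := by
    apply hP1M c hcP1
    rw [hφ1', hcdef, map_mul, map_mul, map_mul, map_inv, map_inv, hu1x, hu2x, r.hc]
    group
  have e1 : t * u1 * t⁻¹ = u1⁻¹ * k1 := by rw [hk1]; group
  have e2 : t * u2 * t⁻¹ = u2 * k2 := by rw [hk2]; group
  have hc2 : c * c = 1 := by
    have h1 : t * c * t⁻¹ = c := by rw [← hcent c hcM' t, mul_inv_cancel_right]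
    have h2 : t * c * t⁻¹ = (t * u1 * t⁻¹) * (t * u2 * t⁻¹) * (t * u1 * t⁻¹)⁻¹ * (t * u2 * t⁻¹)⁻¹ := by
      rw [hcdef]; group
    have h3 : (u1⁻¹ * k1) * (u2 * k2) * (u1⁻¹ * k1)⁻¹ * (u2 * k2)⁻¹ = u1⁻¹ * u2 * u1 * u2⁻¹ := by
      have f1 := hcent k1 hk1M
      have f2 := hcent k2 hk2M
      calc (u1⁻¹ * k1) * (u2 * k2) * (u1⁻¹ * k1)⁻¹ * (u2 * k2)⁻¹
          = u1⁻¹ * (k1 * u2) * k2 * k1⁻¹ * u1 * k2⁻¹ * u2⁻¹ := by group
        _ = u1⁻¹ * (u2 * k1) * k2 * k1⁻¹ * u1 * k2⁻¹ * u2⁻¹ := by rw [f1 u2]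
        _ = u1⁻¹ * u2 * (k1 * k2) * k1⁻¹ * u1 * k2⁻¹ * u2⁻¹ := by group
        _ = u1⁻¹ * u2 * (k2 * k1) * k1⁻¹ * u1 * k2⁻¹ * u2⁻¹ := by rw [f1 k2]
        _ = u1⁻¹ * u2 * (k2 * u1) * k2⁻¹ * u2⁻¹ := by group
        _ = u1⁻¹ * u2 * (u1 * k2) * k2⁻¹ * u2⁻¹ := by rw [f2 u1]
        _ = u1⁻¹ * u2 * u1 * u2⁻¹ := by group
    have h4 : u1⁻¹ * u2 * u1 * u2⁻¹ = c := by rw [← h3, ← e1, ← e2, ← h2, h1]
    have h5 : u1 * c * u1⁻¹ = c := by rw [← hcent c hcM' u1, mul_inv_cancel_right]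
    calc c * c = (u1 * c * u1⁻¹) * c := by rw [h5]
      _ = (u1 * (u1⁻¹ * u2 * u1 * u2⁻¹) * u1⁻¹) * c := by rw [h4]
      _ = 1 := by rw [hcdef]; group
  have hc1 : c = 1 := by
    obtain ⟨k, hk⟩ := hP1 ⟨c, hcP1⟩
    have hk' : c ^ 3 ^ k = 1 := by simpa using congrArg Subtype.val hk
    have h1 : orderOf c ∣ 3 ^ k := orderOf_dvd_of_pow_eq_one hk'
    have h2 : orderOf c ∣ 2 := orderOf_dvd_of_pow_eq_one (by rw [pow_two, hc2])
    have h3 : orderOf c ∣ 1 := by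
      have : Nat.Coprime (3 ^ k) 2 := Nat.Coprime.pow_left k (by norm_num)
      rw [← this.gcd_eq_one]; exact Nat.dvd_gcd h1 h2
    exact orderOf_eq_one_iff.1 (Nat.dvd_one.1 h3)
  have hu12 : u1 * u2 = u2 * u1 := by
    have h1 : u1 * u2 = c * (u2 * u1) := by rw [hcdef]; group
    rw [h1, hc1, one_mul]
  -- `P1` is abelian
  have hP1c : ∀ p ∈ P1, Commute p u1 ∧ Commute p u2 ∧ ∃ i j : ℕ, ∃ k : C1, (k : H) ∈ M ∧ p = u1 ^ i * u2 ^ j * k := by
    intro p hp
    have h1 : φ1 p ∈ r.C := by rw [← hP1m]; exact ⟨p, hp, rfl⟩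
    obtain ⟨i, j, hij⟩ := h1
    set k : C1 := (u1 ^ i * u2 ^ j)⁻¹ * p with hk
    have hkP : k ∈ P1 := P1.mul_mem (P1.inv_mem (P1.mul_mem (P1.pow_mem hu1 i) (P1.pow_mem hu2 j))) hp
    have hkM : (k : H) ∈ M := by
      apply hP1M k hkP
      rw [hφ1', hk, map_mul, map_inv, map_mul, map_pow, map_pow, hu1x, hu2x, hij, inv_mul_cancel]
    have hpk : p = u1 ^ i * u2 ^ j * k := by rw [hk]; group
    have f1 : Commute u1 u2 := hu12
    have g1 : Commute k u1 := hcent k hkM u1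
    have g2 : Commute k u2 := hcent k hkM u2
    refine ⟨?_, ?_, i, j, k, hkM, hpk⟩
    · rw [hpk]
      exact ((((Commute.refl u1).pow_left i).mul_left (f1.symm.pow_left j))).mul_left g1
    · rw [hpk]
      exact (((f1.pow_left i).mul_left ((Commute.refl u2).pow_left j))).mul_left g2
  have hP1ab : ∀ p ∈ P1, ∀ q ∈ P1, p * q = q * p := by
    intro p hp q hq
    obtain ⟨h1, h2, -⟩ := hP1c p hp
    obtain ⟨-, -, i, j, k, hkM, rfl⟩ := hP1c q hq
    have h3 : Commute p k := (hcent k hkM p).symm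
    exact ((((h1.pow_right i).mul_right (h2.pow_right j))).mul_right h3).eq
  -- `P` is conjugate into `P1`
  have hPC1 : P ≤ C1 := fun p hp => (memC1 p).2 fun z hz => (hMc z hz p hp).symm
  obtain ⟨y, -, hy⟩ := hP1s (P.subgroupOf C1) (hP.comap_subtype) (by
    rintro _ ⟨v, hv, rfl⟩
    rw [← hPm]
    exact ⟨v, hv, rfl⟩)
  apply hab
  have h1 := hy ⟨a, hPC1 (hAP haA)⟩ (hAP haA)
  have h2 := hy ⟨b, hPC1 hbP⟩ hbP
  have h3 := hP1ab _ h1 _ h2
  have h4 : y * (⟨a, hPC1 (hAP haA)⟩ * ⟨b, hPC1 hbP⟩) * y⁻¹ = y * (⟨b, hPC1 hbP⟩ * ⟨a, hPC1 (hAP haA)⟩) * y⁻¹ := by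
    calc y * (⟨a, hPC1 (hAP haA)⟩ * ⟨b, hPC1 hbP⟩) * y⁻¹
        = y * ⟨a, hPC1 (hAP haA)⟩ * y⁻¹ * (y * ⟨b, hPC1 hbP⟩ * y⁻¹) := by group
      _ = y * ⟨b, hPC1 hbP⟩ * y⁻¹ * (y * ⟨a, hPC1 (hAP haA)⟩ * y⁻¹) := h3
      _ = _ := by group
  exact congrArg Subtype.val (mul_left_cancel (mul_right_cancel h4))

end Cfsg.Agent.H51.A8Sec
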