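import Cfsg.Agent.H9.CyclicNormal
import Cfsg.Agent.H11.Act
import Cfsg.Prelude.Def_PLocal
import Cfsg.Prelude.Def_CaseTheorems

/-!
# `p`-groups with a self-centralizing cyclic normal subgroup
-/

set_option autoImplicit false

namespace Cfsg.Agent.H51

open Subgroup

variable {P : Type*} [Group P]

/-- Self-centralizing cyclic normal subgroup: if no outside element acts as `1` modulo `p^(m-1)`, then `p = 2` and
the index is two. -/
theorem index_two_of_no [Finite P] {p : ℕ} [hpf : Fact p.Prime] (hP : IsPGroup p P) (a : P)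
    (hAn : (zpowers a).Normal) (hcent : centralizer ((zpowers a : Subgroup P) : Set P) = zpowers a)
    (m : ℕ) (hm : orderOf a = p ^ m) (hna : ∃ x y : P, x * y ≠ y * x)
    (hnoE : 2 ≤ m → (p = 2 → 3 ≤ m) → ∀ g, g ∉ zpowers a → ∀ k : ℤ, g * a * g⁻¹ = a ^ k →
      ¬ (p : ℤ) ^ (m - 1) ∣ k - 1) :
    p = 2 ∧ 2 ≤ m ∧ (zpowers a).index = 2 := by
  have hp : p.Prime := hpf.out
  have key := fun i j : ℤ => Cfsg.Agent.MaxClass.zpow_eq_iff (a := a) (N := p ^ m) hm i j
  have hcast : ((p ^ m : ℕ) : ℤ) = (p : ℤ) ^ m := by push_cast; rfl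
  rw [hcast] at key
  have hAcent : ∀ x : P, x * a * x⁻¹ = a → x ∈ zpowers a := by
    intro x hx
    have hx' : x * a = a * x := mul_inv_eq_iff_eq_mul.1 hx
    rw [← hcent, Subgroup.mem_centralizer_iff]
    rintro _ ⟨i, rfl⟩
    exact ((show Commute a x from hx'.symm).zpow_left i).eq
  have hk := fun g => Cfsg.Agent.MaxClass.exists_conj_zpow hAn g
  choose k hk using hk
  have hkone : ∀ g, (p : ℤ) ^ m ∣ k g - 1 → g ∈ zpowers a := by
    intro g hg
    apply hAcent
    rw [hk g, ← zpow_one a, ← zpow_mul, key, one_mul]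
    exact hg
  have hkmul : ∀ g h, (p : ℤ) ^ m ∣ k (g * h) - k g * k h := by
    intro g h
    rw [← key, ← hk, ← Cfsg.Agent.MaxClass.conj_zpow_of (hk g) (k h), ← hk h]
    group
  -- m ≥ 2
  have hne_top : ∃ g, g ∉ zpowers a := by
    by_contra hcon
    push Not at hcon
    obtain ⟨x, y, hxy⟩ := hna
    obtain ⟨i, rfl⟩ := hcon x
    obtain ⟨j, rfl⟩ := hcon y
    apply hxy
    show a ^ i * a ^ j = a ^ j * a ^ i
    rw [← zpow_add, ← zpow_add, add_comm]
  have hkcop : ∀ g, 1 ≤ m → ¬ (p : ℤ) ∣ k g := by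
    intro g hm1 hdvd
    obtain ⟨c, hc⟩ := hdvd
    -- then a^(p^(m-1)) would be killed by conjugation
    have h1 : g * a ^ ((p : ℤ) ^ (m - 1)) * g⁻¹ = 1 := by
      rw [Cfsg.Agent.MaxClass.conj_zpow_of (hk g), ← zpow_zero a, key, hc]
      refine ⟨c, ?_⟩
      have : (p : ℤ) ^ m = (p : ℤ) ^ (m - 1) * p := by rw [← pow_succ]; congr 1; omega
      rw [this]; ring
    have h2 : a ^ ((p : ℤ) ^ (m - 1)) = 1 := by
      have : a ^ ((p : ℤ) ^ (m - 1)) = g⁻¹ * (g * a ^ ((p : ℤ) ^ (m - 1)) * g⁻¹) * g := by group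
      rw [this, h1]; group
    rw [← zpow_zero a, key, sub_zero] at h2
    have h3 : (p : ℤ) ^ m = (p : ℤ) ^ (m - 1) * p := by rw [← pow_succ]; congr 1; omega
    rw [h3] at h2
    have h4 : (p : ℤ) ^ (m - 1) * p ∣ (p : ℤ) ^ (m - 1) * 1 := by rwa [mul_one]
    have hpz : (p : ℤ) ≠ 0 := by exact_mod_cast hp.ne_zero
    have h5 : (p : ℤ) ∣ 1 := (mul_dvd_mul_iff_left (pow_ne_zero _ hpz)).1 h4
    have h6 := Int.natCast_dvd_natCast.1 (by exact_mod_cast h5 : ((p : ℕ) : ℤ) ∣ ((1 : ℕ) : ℤ))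
    exact hp.one_lt.ne' (Nat.dvd_one.1 h6)
  have hm2 : 2 ≤ m := by
    by_contra hlt
    obtain ⟨g, hg⟩ := hne_top
    have hm01 : m = 0 ∨ m = 1 := by omega
    rcases hm01 with rfl | rfl
    · exact hg (hkone g (by rw [pow_zero]; exact one_dvd _))
    · -- zpowers a has order p, normal in a p-group, hence central
      have hne : zpowers a ≠ ⊥ := by
        rw [Ne, zpowers_eq_bot]
        intro h
        rw [h, orderOf_one, pow_one] at hm
        exact hp.one_lt.ne hm
      have h1 := Cfsg.Agent.Supersolvable.inf_centralizer_ne_bot (p := p) (⊤ : Subgroup P)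
        (zpowers a) (hP.to_subgroup ⊤) (hP.to_subgroup _)
        (by rw [Subgroup.normalizer_eq_top_iff.2 hAn]) hne
      have h2 : zpowers a ≤ centralizer ((⊤ : Subgroup P) : Set P) := by
        have h3 : Nat.card (zpowers a ⊓ centralizer ((⊤ : Subgroup P) : Set P) : Subgroup P) ∣ p := by
          have := Subgroup.card_dvd_of_le
            (inf_le_left : zpowers a ⊓ centralizer ((⊤ : Subgroup P) : Set P) ≤ zpowers a)
          rwa [Nat.card_zpowers, hm, pow_one] at this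
        rcases (Nat.dvd_prime hp).1 h3 with h | h
        · exact absurd (Subgroup.card_eq_one.1 h) h1
        · have := Subgroup.eq_of_le_of_card_ge
            (inf_le_left : zpowers a ⊓ centralizer ((⊤ : Subgroup P) : Set P) ≤ zpowers a)
            (by rw [h, Nat.card_zpowers, hm, pow_one])
          rw [← this]; exact inf_le_right
      apply hg
      apply hAcent
      have h4 := Subgroup.mem_centralizer_iff.1 (h2 (mem_zpowers a)) g (mem_top g)
      rw [h4, mul_inv_cancel_right]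
  -- no element outside acts as 1 mod p^(m-1) (given m ≥ 3 if p = 2)
  have hno : (p = 2 → 3 ≤ m) → ∀ g, g ∉ zpowers a → ¬ (p : ℤ) ^ (m - 1) ∣ k g - 1 := by
    intro hm3 g hg hdvd
    exact hnoE hm2 hm3 g hg (k g) (hk g) hdvd
  have hmem_pow : ∀ g, ∃ s : ℕ, g ^ p ^ s ∈ zpowers a := fun g => by
    obtain ⟨s, hs⟩ := (isPGroup_iff_pow_pow_eq_one.1 hP) g
    exact ⟨s, by rw [hs]; exact one_mem _⟩
  have hkpow : ∀ g (s : ℕ), (p : ℤ) ^ m ∣ k (g ^ s) - (k g) ^ s := by
    intro g s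
    rw [← key, ← hk, Cfsg.Agent.MaxClass.conj_pow_iter (hk g)]
  have hkmem : ∀ g, g ∈ zpowers a → (p : ℤ) ^ m ∣ k g - 1 := by
    rintro _ ⟨i, rfl⟩
    rw [← key, ← hk, zpow_one]
    show a ^ i * a * (a ^ i)⁻¹ = a
    rw [← zpow_neg, ← zpow_add_one, ← zpow_add]
    have : i + 1 + -i = 1 := by ring
    rw [this, zpow_one]
  -- existence of an element outside whose p-th power is inside
  have hex : ∃ g, g ∉ zpowers a ∧ g ^ p ∈ zpowers a := by
    classical
    obtain ⟨g, hg⟩ := hne_top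
    have h := hmem_pow g
    have hs0 : Nat.find h ≠ 0 := by
      intro h0
      have := Nat.find_spec h
      rw [h0, pow_zero, pow_one] at this
      exact hg this
    obtain ⟨s, hs⟩ := Nat.exists_eq_succ_of_ne_zero hs0
    refine ⟨g ^ p ^ s, Nat.find_min h (by omega), ?_⟩
    rw [← pow_mul, ← pow_succ]
    have := Nat.find_spec h
    rwa [hs] at this
  have hp2 : p = 2 := by
    by_contra hp2
    obtain ⟨g, hg, hgp⟩ := hex
    have h1 : (p : ℤ) ^ m ∣ (k g) ^ p - 1 := by
      have h2 := hkmem _ hgp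
      have h3 := hkpow g p
      have := dvd_sub h2 h3
      have e : k (g ^ p) - 1 - (k (g ^ p) - k g ^ p) = k g ^ p - 1 := by ring
      rwa [e] at this
    obtain ⟨r, hr⟩ : ∃ r, m = r + 1 := ⟨m - 1, by omega⟩
    have h2 := Cfsg.Agent.MaxClass.pow_one_mod_odd hp2 r (by omega) (k g) (by rw [← hr]; exact h1)
    exact hno (fun h => absurd h hp2) g hg (by rw [hr]; exact h2)
  subst hp2
  refine ⟨rfl, hm2, ?_⟩
  -- squares of elements outside lie inside
  have hodd : ∀ g, Odd (k g) := by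
    intro g
    rw [← Int.not_even_iff_odd, even_iff_two_dvd]
    exact hkcop g (by omega)
  have hsq : ∀ g, g ^ 2 ∈ zpowers a := by
    classical
    intro g
    by_cases hg : g ∈ zpowers a
    · exact pow_mem hg 2
    have h := hmem_pow g
    have hs0 : Nat.find h ≠ 0 := by
      intro h0
      have := Nat.find_spec h
      rw [h0, pow_zero, pow_one] at this
      exact hg this
    obtain ⟨s, hs⟩ := Nat.exists_eq_succ_of_ne_zero hs0
    have h1 : g ^ 2 ^ s ∉ zpowers a := Nat.find_min h (by omega)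
    have h2 : g ^ 2 ^ (s + 1) ∈ zpowers a := by
      have := Nat.find_spec h
      rwa [hs] at this
    rcases Nat.eq_zero_or_pos s with rfl | hspos
    · simpa using h2
    exfalso
    -- k (g^(2^s)) is a square mod 2^m so ≡ 1 mod 4 (mod 8 if m ≥ 3)
    obtain ⟨t, rfl⟩ : ∃ t, s = t + 1 := ⟨s - 1, by omega⟩
    set y := g ^ 2 ^ t with hy
    have hys : g ^ 2 ^ (t + 1) = y ^ 2 := by rw [hy, ← pow_mul, ← pow_succ]
    rw [hys] at h1
    have h3 := hkpow y 2
    obtain ⟨w, hw⟩ := hodd y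
    have h4 : (8 : ℤ) ∣ (k y) ^ 2 - 1 := by
      rw [hw]
      have : (2 * w + 1) ^ 2 - 1 = 4 * (w * (w + 1)) := by ring
      rw [this]
      obtain ⟨v, hv⟩ := Int.even_mul_succ_self w
      exact ⟨v, by rw [hv]; ring⟩
    -- m = 2 : then k(y²) ≡ 1 mod 4
    rcases hm2.eq_or_lt with h5 | h5
    · apply h1
      apply hkone
      rw [← h5] at h3 ⊢
      push_cast at h3 ⊢
      omega
    · have h6 : (2 : ℤ) ^ m ∣ (k (y ^ 2)) ^ 2 - 1 := by
        have h7 := hkmem _ h2
        have h8 : g ^ 2 ^ (t + 1 + 1) = (y ^ 2) ^ 2 := by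
          rw [hy, ← pow_mul, ← pow_mul]; congr 1; ring
        rw [h8] at h7
        have h9 := hkpow (y ^ 2) 2
        have := dvd_sub h7 h9
        push_cast at this
        have e : k ((y ^ 2) ^ 2) - 1 - (k ((y ^ 2) ^ 2) - k (y ^ 2) ^ 2) = k (y ^ 2) ^ 2 - 1 := by ring
        rwa [e] at this
      rcases Cfsg.Agent.MaxClass.sq_one_mod_two_pow m hm2 _ h6 with h7 | h7
      · exact hno (fun _ => h5) _ h1 (by push_cast; exact h7)
      · -- k(y²) ≡ -1 mod 4 and ≡ 1 mod 4
        have h8 : (4 : ℤ) ∣ k (y ^ 2) + 1 := dvd_trans (by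
          have : (4 : ℤ) = 2 ^ 2 := by norm_num
          rw [this]
          exact pow_dvd_pow 2 (by omega)) h7
        have h9 : (4 : ℤ) ∣ k (y ^ 2) - (k y) ^ 2 := by
          have h10 : (4 : ℤ) ∣ ((2 : ℕ) : ℤ) ^ m := by
            have h11 : ((2 : ℕ) : ℤ) ^ 2 ∣ ((2 : ℕ) : ℤ) ^ m := pow_dvd_pow _ hm2
            have h12 : ((2 : ℕ) : ℤ) ^ 2 = 4 := by norm_num
            rwa [h12] at h11
          exact dvd_trans h10 h3
        omega
  -- outside elements act as -1 mod 2^(m-1)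
  have hminus : ∀ g, g ∉ zpowers a → (2 : ℤ) ^ (m - 1) ∣ k g + 1 := by
    intro g hg
    rcases hm2.eq_or_lt with h5 | h5
    · rw [← h5]
      obtain ⟨w, hw⟩ := hodd g
      rw [hw]
      exact ⟨w + 1, by norm_num; ring⟩
    · have h6 : (2 : ℤ) ^ m ∣ (k g) ^ 2 - 1 := by
        have h7 := hkmem _ (hsq g)
        have h9 := hkpow g 2
        have := dvd_sub h7 h9
        push_cast at this
        have e : k (g ^ 2) - 1 - (k (g ^ 2) - k g ^ 2) = k g ^ 2 - 1 := by ring
        rwa [e] at this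
      rcases Cfsg.Agent.MaxClass.sq_one_mod_two_pow m hm2 _ h6 with h7 | h7
      · exact absurd (by push_cast; exact h7) (hno (fun _ => h5) g hg)
      · exact h7
  have hprod : ∀ g h, g ∉ zpowers a → h ∉ zpowers a → g * h ∈ zpowers a := by
    intro g h hg hh
    by_contra hgh
    rcases hm2.eq_or_lt with h5 | h5
    · -- m = 2: k g ≡ k h ≡ 3 mod 4
      have aux : ∀ x, x ∉ zpowers a → k x % 4 = 3 := by
        intro x hx
        have h1 : ¬ (4 : ℤ) ∣ k x - 1 := by
          intro h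
          apply hx
          apply hkone
          rw [← h5]; push_cast; exact h
        obtain ⟨w, hw⟩ := hodd x
        omega
      have h1 := aux g hg
      have h2 := aux h hh
      have h3 := aux _ hgh
      have h4 := hkmul g h
      rw [← h5] at h4
      push_cast at h4
      norm_num at h4
      have h6 : (k g * k h) % 4 = 1 := by rw [Int.mul_emod, h1, h2]; norm_num
      omega
    · have h1 := hminus g hg
      have h2 := hminus h hh
      have h3 := hkmul g h
      apply hno (fun _ => h5) _ hgh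
      push_cast
      have h4 : (2 : ℤ) ^ (m - 1) ∣ k (g * h) - k g * k h := dvd_trans (by
        push_cast
        exact pow_dvd_pow 2 (by omega)) h3
      obtain ⟨c, hc⟩ := h1
      obtain ⟨d, hd⟩ := h2
      obtain ⟨e, he⟩ := h4
      refine ⟨e + (2 : ℤ) ^ (m - 1) * c * d - c - d, ?_⟩
      have e1 : k g = 2 ^ (m - 1) * c - 1 := by linarith
      have e2 : k h = 2 ^ (m - 1) * d - 1 := by linarith
      rw [e1, e2] at he
      linarith [he]
  rw [Subgroup.index_eq_two_iff]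
  obtain ⟨g, hg⟩ := hne_top
  refine ⟨g, fun b => ?_⟩
  by_cases hb : b ∈ zpowers a
  · right
    refine ⟨hb, fun h => hg ?_⟩
    have : g = b⁻¹ * (b * g) := by group
    rw [this]
    exact mul_mem (inv_mem hb) h
  · left
    exact ⟨hprod b g hb hg, hb⟩

theorem mem_cent_power {p : ℕ} (a : P) (g : P) :
    g ∈ centralizer (Cfsg.powerClosure p 1 (zpowers a) : Set P) ↔ g * a ^ p = a ^ p * g := by
  constructor
  · intro h
    rw [mem_centralizer_iff] at h
    refine (h (a ^ p) ?_).symm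
    apply Subgroup.subset_closure
    exact ⟨a, mem_zpowers a, by rw [pow_one]⟩
  · intro h
    have h1 : Cfsg.powerClosure p 1 (zpowers a) ≤ centralizer {g} := by
      rw [Cfsg.powerClosure, closure_le]
      rintro _ ⟨x, hx, rfl⟩
      obtain ⟨i, rfl⟩ := mem_zpowers_iff.mp hx
      rw [SetLike.mem_coe, mem_centralizer_singleton_iff, pow_one]
      have h2 : (a ^ i) ^ p = (a ^ p) ^ i := by
        rw [← zpow_natCast, ← zpow_natCast, ← zpow_mul, ← zpow_mul, mul_comm]
      rw [h2]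
      exact (((show Commute g (a ^ p) from h).zpow_right i).eq).symm
    rw [mem_centralizer_iff]
    intro x hx
    exact mem_centralizer_singleton_iff.mp (h1 hx)

theorem elem_comm_pow {p : ℕ} (a : P) (hAn : (zpowers a).Normal) {E : Subgroup P} (hE : E.Normal)
    (hEab : IsMulCommutative E) (hEp : ∀ e ∈ E, e ^ p = 1) {e : P} (he : e ∈ E) :
    e * a ^ p = a ^ p * e := by
  obtain ⟨c, hc⟩ : ∃ c, c = e * a * e⁻¹ * a⁻¹ := ⟨_, rfl⟩
  have hcE : c ∈ E := by
    have : c = e * (a * e⁻¹ * a⁻¹) := by rw [hc]; group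
    rw [this]
    exact mul_mem he (hE.conj_mem _ (inv_mem he) a)
  have hcA : c ∈ zpowers a := by
    rw [hc]
    exact mul_mem (hAn.conj_mem a (mem_zpowers a) e) (inv_mem (mem_zpowers a))
  have hca : Commute c a := by
    obtain ⟨i, rfl⟩ := mem_zpowers_iff.mp hcA
    exact (Commute.refl a).zpow_left i
  have h1 : e * a * e⁻¹ = c * a := by rw [hc]; group
  have h2 : e * a ^ p * e⁻¹ = a ^ p := by
    rw [← conj_pow, h1, hca.mul_pow, hEp c hcE, one_mul]
  calc e * a ^ p = (e * a ^ p * e⁻¹) * e := by group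
    _ = a ^ p * e := by rw [h2]

theorem omega_of_elem [Finite P] {p : ℕ} [hpf : Fact p.Prime] (a : P)
    (hAn : (zpowers a).Normal) (hcent : centralizer ((zpowers a : Subgroup P) : Set P) = zpowers a)
    (n : ℕ) (ha : orderOf a = p ^ n) (hn2 : 2 ≤ n) (hn3 : p = 2 → 3 ≤ n)
    {E : Subgroup P} (hE : E.Normal) (hEab : IsMulCommutative E) (hEp : ∀ e ∈ E, e ^ p = 1)
    (hEc : Nat.card E = p ^ 2) :
    (zpowers a).relIndex (centralizer (Cfsg.powerClosure p 1 (zpowers a) : Set P)) = p ∧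
      Cfsg.omegaOne p (centralizer (Cfsg.powerClosure p 1 (zpowers a) : Set P)) = E := by
  have hp : p.Prime := hpf.out
  obtain ⟨M, hMd⟩ : ∃ M, M = centralizer (Cfsg.powerClosure p 1 (zpowers a) : Set P) := ⟨_, rfl⟩
  have hM : ∀ g, g ∈ M ↔ g * a ^ p = a ^ p * g := by rw [hMd]; exact mem_cent_power a
  rw [← hMd]
  have hEM : E ≤ M := fun e he => (hM e).mpr (elem_comm_pow a hAn hE hEab hEp he)
  have hUM : zpowers a ≤ M := by
    rw [zpowers_le, hM]
    exact ((Commute.refl a).pow_right p).eq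
  have key := fun i j : ℤ => Cfsg.Agent.MaxClass.zpow_eq_iff (a := a) (N := p ^ n) ha i j
  have hcast : ((p ^ n : ℕ) : ℤ) = (p : ℤ) ^ n := by push_cast; rfl
  rw [hcast] at key
  have hpz : (p : ℤ) ≠ 0 := by exact_mod_cast hp.ne_zero
  obtain ⟨r, rfl⟩ : ∃ r, n = r + 1 := ⟨n - 1, by omega⟩
  -- the elements of U of order dividing p
  have hUp : ∀ i : ℤ, (a ^ i) ^ p = 1 → (p : ℤ) ^ r ∣ i := by
    intro i hi
    rw [← zpow_natCast, ← zpow_mul, ← zpow_zero a, key, sub_zero, pow_succ] at hi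
    exact (mul_dvd_mul_iff_right hpz).mp hi
  -- action of elements of M
  have hMk : ∀ g ∈ M, ∃ k : ℤ, g * a * g⁻¹ = a ^ k ∧ (p : ℤ) ^ r ∣ k - 1 := by
    intro g hg
    obtain ⟨k, hk⟩ := Cfsg.Agent.MaxClass.exists_conj_zpow hAn g
    refine ⟨k, hk, ?_⟩
    apply hUp
    have h1 : (a ^ k) ^ p = a ^ p := by
      rw [← hk, conj_pow]
      rw [hM] at hg
      rw [hg, mul_inv_cancel_right]
    have h2 : a ^ (k - 1) = a ^ k * a⁻¹ := by rw [zpow_sub, zpow_one]
    have h3 : Commute (a ^ k) a⁻¹ := ((Commute.refl a).zpow_left k).inv_right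
    rw [h2, h3.mul_pow, h1, inv_pow, mul_inv_cancel]
  obtain ⟨z, hz⟩ : ∃ z, z = a ^ ((p : ℤ) ^ r) := ⟨_, rfl⟩
  have hzi : ∀ i : ℤ, (p : ℤ) ^ r ∣ i → a ^ i ∈ zpowers z := by
    rintro _ ⟨c, rfl⟩
    rw [hz, zpow_mul]
    exact zpow_mem_zpowers _ _
  have hzp : z ^ p = 1 := by
    rw [hz, ← zpow_natCast, ← zpow_mul, ← zpow_zero a, key, sub_zero, pow_succ]
  have hz1 : z ≠ 1 := by
    rw [hz, Ne, ← zpow_zero a, key, sub_zero, pow_succ]
    intro h
    have h2 : (p : ℤ) ^ r * p ∣ (p : ℤ) ^ r * 1 := by rwa [mul_one]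
    have h3 : (p : ℤ) ∣ 1 := (mul_dvd_mul_iff_left (pow_ne_zero _ hpz)).mp h2
    have h6 := Int.natCast_dvd_natCast.1 (by exact_mod_cast h3 : ((p : ℕ) : ℤ) ∣ ((1 : ℕ) : ℤ))
    exact hp.one_lt.ne' (Nat.dvd_one.1 h6)
  have hzo : orderOf z = p := orderOf_eq_prime hzp hz1
  have hzkey := fun i j : ℤ => Cfsg.Agent.MaxClass.zpow_eq_iff (a := z) (N := p) hzo i j
  have hza : Commute z a := by rw [hz]; exact (Commute.refl a).zpow_left _
  -- an element of E outside U
  obtain ⟨x, hxE, hxU⟩ : ∃ x ∈ E, x ∉ zpowers a := by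
    by_contra hcon
    push Not at hcon
    have h1 : E ≤ zpowers z := by
      intro e he
      obtain ⟨i, rfl⟩ := mem_zpowers_iff.mp (hcon e he)
      exact hzi i (hUp i (hEp _ he))
    have h2 := Subgroup.card_le_of_le h1
    rw [hEc, Nat.card_zpowers, hzo] at h2
    have h5 : p * 1 < p * p := Nat.mul_lt_mul_of_pos_left hp.one_lt hp.pos
    rw [mul_one, ← pow_two] at h5
    omega
  have hform : ∀ g ∈ M, ∃ c : ℤ, g * a * g⁻¹ = z ^ c * a := by
    intro g hg
    obtain ⟨k, hk, c, hc⟩ := hMk g hg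
    refine ⟨c, ?_⟩
    rw [hk, hz, ← zpow_mul, ← hc, ← zpow_add_one]
    congr 1
    ring
  obtain ⟨c, hc⟩ := hform x (hEM hxE)
  have hUcent : ∀ g, g * a = a * g → g ∈ zpowers a := by
    intro g hg
    rw [← hcent, Subgroup.mem_centralizer_iff]
    rintro _ ⟨i, rfl⟩
    exact ((show Commute a g from hg.symm).zpow_left i).eq
  have hpc : ¬ (p : ℤ) ∣ c := by
    intro h
    apply hxU
    apply hUcent
    have h1 : z ^ c = 1 := by rw [← zpow_zero z, hzkey, sub_zero]; exact h
    rw [h1, one_mul] at hc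
    exact mul_inv_eq_iff_eq_mul.mp hc
  have hcop : IsCoprime c (p : ℤ) := by
    rw [isCoprime_comm]
    exact (Prime.coprime_iff_not_dvd (Nat.prime_iff_prime_int.mp hp)).mpr hpc
  obtain ⟨s, t, hst⟩ := hcop
  have hzE : z ∈ E := by
    have h1 : z ^ c ∈ E := by
      have : z ^ c = x * (a * x⁻¹ * a⁻¹) := by
        have h2 : z ^ c = (x * a * x⁻¹) * a⁻¹ := by rw [hc]; group
        rw [h2]; group
      rw [this]
      exact mul_mem hxE (hE.conj_mem _ (inv_mem hxE) a)
    have h2 : z = (z ^ c) ^ s := by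
      rw [← zpow_mul]
      conv_lhs => rw [← zpow_one z]
      rw [hzkey]
      refine ⟨t, ?_⟩
      linarith
    rw [h2]
    exact zpow_mem h1 s
  have hzE' : zpowers z ≤ E := by rw [zpowers_le]; exact hzE
  have hzx : Commute z x := congrArg Subtype.val (hEab.is_comm.comm (⟨z, hzE⟩ : E) ⟨x, hxE⟩)
  have hxj : ∀ j : ℤ, x ^ j * a * (x ^ j)⁻¹ = z ^ (c * j) * a := by
    have hnat : ∀ j : ℕ, x ^ j * a * (x ^ j)⁻¹ = z ^ (c * j) * a := by
      intro j
      induction j with
      | zero => simp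
      | succ j ih =>
        have e1 : x ^ (j + 1) * a * (x ^ (j + 1))⁻¹ = x * (x ^ j * a * (x ^ j)⁻¹) * x⁻¹ := by
          rw [pow_succ']; group
        have e2 : x * z ^ (c * (j : ℤ)) = z ^ (c * (j : ℤ)) * x := ((hzx.zpow_left _).eq).symm
        rw [e1, ih]
        calc x * (z ^ (c * (j : ℤ)) * a) * x⁻¹ = (x * z ^ (c * (j : ℤ))) * a * x⁻¹ := by group
          _ = z ^ (c * (j : ℤ)) * (x * a * x⁻¹) := by rw [e2]; group
          _ = z ^ (c * ((j + 1 : ℕ) : ℤ)) * a := by
            rw [hc, ← mul_assoc, ← zpow_add]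
            congr 2
            push_cast; ring
    intro j
    have hxp : x ^ (p : ℤ) = 1 := by rw [zpow_natCast]; exact hEp x hxE
    have hj : x ^ j = x ^ ((j % p).toNat) := by
      have h1 : ((j % p).toNat : ℤ) = j % p := Int.toNat_of_nonneg (Int.emod_nonneg j hpz)
      rw [← zpow_natCast, h1]
      conv_lhs => rw [← Int.mul_ediv_add_emod j p]
      rw [zpow_add, zpow_mul, hxp, one_zpow, one_mul]
    have h1 : ((j % p).toNat : ℤ) = j % p := Int.toNat_of_nonneg (Int.emod_nonneg j hpz)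
    rw [hj, hnat, h1]
    congr 1
    rw [hzkey]
    refine ⟨-(c * (j / p)), ?_⟩
    have := Int.mul_ediv_add_emod j p
    have e : j % p = j - p * (j / p) := by linarith
    rw [e]; ring
  -- M = U E
  have hMUE : ∀ g ∈ M, ∃ i j : ℤ, g = a ^ i * x ^ j := by
    intro g hg
    obtain ⟨d, hd⟩ := hform g hg
    have h1 : (x ^ (s * d))⁻¹ * g ∈ zpowers a := by
      apply hUcent
      have h2 : z ^ (c * (s * d)) = z ^ d := by
        rw [hzkey]
        refine ⟨-(t * d), ?_⟩
        have : c * (s * d) - d = (s * c - 1) * d := by ring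
        rw [this]
        have e : s * c - 1 = -(t * p) := by linarith
        rw [e]; ring
      have h3 := hxj (s * d)
      rw [h2] at h3
      have h4 : x ^ (s * d) * a * (x ^ (s * d))⁻¹ = g * a * g⁻¹ := by rw [h3, hd]
      calc (x ^ (s * d))⁻¹ * g * a = (x ^ (s * d))⁻¹ * (g * a * g⁻¹) * g := by group
        _ = (x ^ (s * d))⁻¹ * (x ^ (s * d) * a * (x ^ (s * d))⁻¹) * g := by rw [h4]
        _ = a * ((x ^ (s * d))⁻¹ * g) := by group
    obtain ⟨i, hi⟩ := mem_zpowers_iff.mp h1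
    have h5 : g = x ^ (s * d) * a ^ i := by rw [hi]; group
    obtain ⟨k, hk⟩ := Cfsg.Agent.MaxClass.exists_conj_zpow hAn (x ^ (s * d))
    have h6 := Cfsg.Agent.MaxClass.conj_zpow_of hk i
    refine ⟨k * i, s * d, ?_⟩
    rw [h5, ← h6]; group
  constructor
  · -- index
    have hUE : zpowers a ⊔ E = M := by
      apply le_antisymm (sup_le hUM hEM)
      intro g hg
      obtain ⟨i, j, rfl⟩ := hMUE g hg
      exact Subgroup.mul_mem_sup (zpow_mem_zpowers a i) (zpow_mem hxE j)
    have hinf : zpowers a ⊓ E = zpowers z := by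
      apply le_antisymm
      · rintro y ⟨hy1, hy2⟩
        obtain ⟨i, rfl⟩ := mem_zpowers_iff.mp hy1
        exact hzi i (hUp i (hEp _ hy2))
      · refine le_inf ?_ hzE'
        rw [zpowers_le, hz]
        exact zpow_mem_zpowers a _
    have h1 := Cfsg.Agent.H11.card_sup_mul_card_inf (H := zpowers a) (K := E) (by
      rw [normalizer_eq_top_iff.mpr hE]; exact le_top)
    rw [hUE, hinf, Nat.card_zpowers, Nat.card_zpowers, hzo, ha, hEc] at h1
    have h2 : Nat.card M = p ^ (r + 2) := by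
      have : Nat.card M * p = p ^ (r + 2) * p := by rw [h1]; ring
      exact Nat.eq_of_mul_eq_mul_right hp.pos this
    have h3 := Subgroup.relIndex_mul_relIndex ⊥ (zpowers a) M bot_le hUM
    rw [Subgroup.relIndex_bot_left, Subgroup.relIndex_bot_left, Nat.card_zpowers, ha, h2] at h3
    have h4 : p ^ (r + 1) * (zpowers a).relIndex M = p ^ (r + 1) * p := by rw [h3]; ring
    exact Nat.eq_of_mul_eq_mul_left (pow_pos hp.pos _) h4
  · apply le_antisymm
    · rw [Cfsg.omegaOne, closure_le]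
      rintro g ⟨hgM, hgp⟩
      obtain ⟨i, j, rfl⟩ := hMUE g hgM
      have hyE : x ^ j ∈ E := zpow_mem hxE j
      obtain ⟨k, hk, hk1⟩ := hMk (x ^ j) (hEM hyE)
      obtain ⟨u, hu, hpu⟩ := Cfsg.Agent.H9.geom_sum_eq_mul_unit hp (r + 1) hn2 hn3 k
        (by rw [Nat.add_sub_cancel]; exact hk1)
      rw [Cfsg.Agent.MaxClass.zpow_mul_pow hk, hEp _ hyE, mul_one, hu, ← zpow_zero a, key, sub_zero] at hgp
      have h4 : (p : ℤ) * (p : ℤ) ^ r ∣ p * (i * u) := by
        have e1 : (p : ℤ) * (p : ℤ) ^ r = (p : ℤ) ^ (r + 1) := by ring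
        have e2 : (p : ℤ) * (i * u) = i * (p * u) := by ring
        rw [e1, e2]; exact hgp
      have h5 : (p : ℤ) ^ r ∣ i * u := (mul_dvd_mul_iff_left hpz).1 h4
      have hcu : IsCoprime ((p : ℤ) ^ r) u :=
        IsCoprime.pow_left ((Prime.coprime_iff_not_dvd (Nat.prime_iff_prime_int.mp hp)).mpr hpu)
      have h6 : (p : ℤ) ^ r ∣ i := hcu.dvd_of_dvd_mul_right h5
      exact mul_mem (hzE' (hzi i h6)) hyE
    · intro e he
      exact Subgroup.subset_closure ⟨hEM he, hEp e he⟩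

end Cfsg.Agent.H51
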