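import Cfsg.Agent.H51.D4W
import Cfsg.Agent.H51.G2W2
import Cfsg.Agent.Tw3.RowsD4
import Cfsg.Agent.S1061
import Cfsg.Agent.ChevU.Smith

set_option autoImplicit false
set_option maxRecDepth 100000

/-!
Diagonalisation of an element of order three of the group of type D4 (a three-dimensional submodule of the
centraliser of a toral element of order three).
-/

namespace Cfsg.Agent.H51.D4Diag

open Matrix Cfsg.Lie Cfsg.Agent.Chev Cfsg.Agent.ChevGrp Cfsg.Agent.ChevF Cfsg.Agent.H51.TwoPrime Cfsg.Agent.H51.ChevFus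
  Cfsg.Agent.H51.F4W Cfsg.Agent.H51.D4W

lemma hD4 : chevD4 ∈ data := by simp [data]

variable {K : Type*} [Field K]

lemma x_fix {r s : ℕ} (hr : r < chevD4.nroots) (hs : s < chevD4.nroots) (h1 : s ≠ r) (h2 : s ≠ chevD4.neg r)
    (h : chevD4.chainEntry r s = []) (t : K) : chevD4.x K r t *ᵥ eB chevD4 K s = eB chevD4 K s := by
  rw [x_mulVec_eB (good_of_mem hD4).rows hr hs h1 h2, h]; simp

lemma x_move {r s u : ℕ} {ε : ℤ} (hr : r < chevD4.nroots) (hs : s < chevD4.nroots) (h1 : s ≠ r) (h2 : s ≠ chevD4.neg r)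
    (h : chevD4.chainEntry r s = [(u, ε)]) (t : K) :
    chevD4.x K r t *ᵥ eB chevD4 K s = eB chevD4 K s + ((ε : K) * t) • eB chevD4 K u := by
  rw [x_mulVec_eB (good_of_mem hD4).rows hr hs h1 h2, h]; simp

/-- vectors of the three-dimensional module -/
def vv (x y z : K) : chevD4.Idx → K := x • eB chevD4 K 18 + y • eB chevD4 K 19 + z • eB chevD4 K 6

lemma vv_18 (x y z : K) : vv x y z (Sum.inr (⟨18, by decide⟩ : Fin chevD4.nroots)) = x := by
  simp [vv, eB_apply_inr]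

lemma vv_19 (x y z : K) : vv x y z (Sum.inr (⟨19, by decide⟩ : Fin chevD4.nroots)) = y := by
  simp [vv, eB_apply_inr]

lemma vv_6 (x y z : K) : vv x y z (Sum.inr (⟨6, by decide⟩ : Fin chevD4.nroots)) = z := by
  simp [vv, eB_apply_inr]

lemma vv_inj {x y z x' y' z' : K} (h : vv x y z = vv x' y' z') : x = x' ∧ y = y' ∧ z = z' := by
  refine ⟨?_, ?_, ?_⟩
  · rw [← vv_18 x y z, h, vv_18]
  · rw [← vv_19 x y z, h, vv_19]
  · rw [← vv_6 x y z, h, vv_6]

lemma x14 (t x y z : K) : chevD4.x K 14 t *ᵥ vv x y z = vv x (y + t * x) z := by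
  have e1 := x_move (K := K) (r := 14) (s := 18) (u := 19) (ε := 1) (by decide) (by decide) (by decide) (by decide) (by decide) t
  have e2 := x_fix (K := K) (r := 14) (s := 19) (by decide) (by decide) (by decide) (by decide) (by decide) t
  have e3 := x_fix (K := K) (r := 14) (s := 6) (by decide) (by decide) (by decide) (by decide) (by decide) t
  unfold vv
  rw [Matrix.mulVec_add, Matrix.mulVec_add, Matrix.mulVec_smul, Matrix.mulVec_smul, Matrix.mulVec_smul, e1, e2, e3]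
  push_cast
  module

lemma x22 (t x y z : K) : chevD4.x K 22 t *ᵥ vv x y z = vv (x - t * z) y z := by
  have e6 := x_move (K := K) (r := 22) (s := 6) (u := 18) (ε := -1) (by decide) (by decide) (by decide) (by decide) (by decide) t
  have e18 := x_fix (K := K) (r := 22) (s := 18) (by decide) (by decide) (by decide) (by decide) (by decide) t
  have e19 := x_fix (K := K) (r := 22) (s := 19) (by decide) (by decide) (by decide) (by decide) (by decide) t
  unfold vv
  rw [Matrix.mulVec_add, Matrix.mulVec_add, Matrix.mulVec_smul, Matrix.mulVec_smul, Matrix.mulVec_smul, e18, e19, e6]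
  push_cast
  module

lemma x23 (t x y z : K) : chevD4.x K 23 t *ᵥ vv x y z = vv x (y - t * z) z := by
  have e6 := x_move (K := K) (r := 23) (s := 6) (u := 19) (ε := -1) (by decide) (by decide) (by decide) (by decide) (by decide) t
  have e18 := x_fix (K := K) (r := 23) (s := 18) (by decide) (by decide) (by decide) (by decide) (by decide) t
  have e19 := x_fix (K := K) (r := 23) (s := 19) (by decide) (by decide) (by decide) (by decide) (by decide) t
  unfold vv
  rw [Matrix.mulVec_add, Matrix.mulVec_add, Matrix.mulVec_smul, Matrix.mulVec_smul, Matrix.mulVec_smul, e18, e19, e6]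
  push_cast
  module

lemma x9 (t x y z : K) : chevD4.x K 9 t *ᵥ vv x y z = vv (x + t * y) y z := by
  have e19 := x_move (K := K) (r := 9) (s := 19) (u := 18) (ε := 1) (by decide) (by decide) (by decide) (by decide) (by decide) t
  have e18 := x_fix (K := K) (r := 9) (s := 18) (by decide) (by decide) (by decide) (by decide) (by decide) t
  have e6 := x_fix (K := K) (r := 9) (s := 6) (by decide) (by decide) (by decide) (by decide) (by decide) t
  unfold vv
  rw [Matrix.mulVec_add, Matrix.mulVec_add, Matrix.mulVec_smul, Matrix.mulVec_smul, Matrix.mulVec_smul, e18, e19, e6]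
  push_cast
  module

lemma x1 (t x y z : K) : chevD4.x K 1 t *ᵥ vv x y z = vv x y (z - t * x) := by
  have e18 := x_move (K := K) (r := 1) (s := 18) (u := 6) (ε := -1) (by decide) (by decide) (by decide) (by decide) (by decide) t
  have e19 := x_fix (K := K) (r := 1) (s := 19) (by decide) (by decide) (by decide) (by decide) (by decide) t
  have e6 := x_fix (K := K) (r := 1) (s := 6) (by decide) (by decide) (by decide) (by decide) (by decide) t
  unfold vv
  rw [Matrix.mulVec_add, Matrix.mulVec_add, Matrix.mulVec_smul, Matrix.mulVec_smul, Matrix.mulVec_smul, e18, e19, e6]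
  push_cast
  module

lemma x0 (t x y z : K) : chevD4.x K 0 t *ᵥ vv x y z = vv x y (z - t * y) := by
  have e19 := x_move (K := K) (r := 0) (s := 19) (u := 6) (ε := -1) (by decide) (by decide) (by decide) (by decide) (by decide) t
  have e18 := x_fix (K := K) (r := 0) (s := 18) (by decide) (by decide) (by decide) (by decide) (by decide) t
  have e6 := x_fix (K := K) (r := 0) (s := 6) (by decide) (by decide) (by decide) (by decide) (by decide) t
  unfold vv
  rw [Matrix.mulVec_add, Matrix.mulVec_add, Matrix.mulVec_smul, Matrix.mulVec_smul, Matrix.mulVec_smul, e18, e19, e6]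
  push_cast
  module


/-- the generators -/
def gens (K : Type*) [Field K] (b : GL chevD4.Idx K) : Set (GL chevD4.Idx K) :=
  {g | g ∈ chevD4.diagonalSubgroup K ∨ (∃ r ∈ ([14, 22, 23, 9, 1, 0] : List ℕ), ∃ t : K, g = xU (good_of_mem hD4).toGood2 r t) ∨ g = b}

/-- the group -/
def LL (K : Type*) [Field K] (b : GL chevD4.Idx K) : Subgroup (GL chevD4.Idx K) := Subgroup.closure (gens K b)

lemma T_le (b : GL chevD4.Idx K) : chevD4.diagonalSubgroup K ≤ LL K b := fun _ hg => Subgroup.subset_closure (Or.inl hg)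

lemma x_mem (b : GL chevD4.Idx K) {r : ℕ} (hr : r ∈ ([14, 22, 23, 9, 1, 0] : List ℕ)) (t : K) :
    xU (good_of_mem hD4).toGood2 r t ∈ LL K b := Subgroup.subset_closure (Or.inr (Or.inl ⟨r, hr, t, rfl⟩))

lemma b_mem (b : GL chevD4.Idx K) : b ∈ LL K b := Subgroup.subset_closure (Or.inr (Or.inr rfl))

lemma LL_le {b : GL chevD4.Idx K} (hb : b ∈ chevD4.group K) : LL K b ≤ chevD4.group K := by
  unfold LL
  rw [Subgroup.closure_le]
  rintro g (hg | ⟨r, hr, t, rfl⟩ | rfl)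
  · exact H_le_group DData.dD4 (good_of_mem hD4) hg
  · refine xU_mem_group DData.dD4 (good_of_mem hD4) ?_ t
    have : ∀ r ∈ ([14, 22, 23, 9, 1, 0] : List ℕ), r < chevD4.nroots := by decide
    exact this r hr
  · exact hb

/-- preservation of the module -/
def Pres (g : GL chevD4.Idx K) : Prop := ∀ x y z : K, ∃ x' y' z' : K, (g : Matrix chevD4.Idx chevD4.Idx K) *ᵥ vv x y z = vv x' y' z'

lemma pres_mul {g h : GL chevD4.Idx K} (hg : Pres g) (hh : Pres h) : Pres (g * h) := by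
  intro x y z
  obtain ⟨x', y', z', e⟩ := hh x y z
  obtain ⟨x'', y'', z'', e'⟩ := hg x' y' z'
  exact ⟨x'', y'', z'', by rw [Units.val_mul, ← Matrix.mulVec_mulVec, e, e']⟩

lemma pres_x {r : ℕ} (hr : r ∈ ([14, 22, 23, 9, 1, 0] : List ℕ)) (t : K) : Pres (xU (good_of_mem hD4).toGood2 r t) := by
  intro x y z
  have e : ((xU (good_of_mem hD4).toGood2 r t : GL chevD4.Idx K) : Matrix chevD4.Idx chevD4.Idx K) = chevD4.x K r t := rfl
  rw [e]
  simp only [List.mem_cons, List.not_mem_nil, or_false] at hr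
  rcases hr with rfl | rfl | rfl | rfl | rfl | rfl
  · exact ⟨_, _, _, x14 t x y z⟩
  · exact ⟨_, _, _, x22 t x y z⟩
  · exact ⟨_, _, _, x23 t x y z⟩
  · exact ⟨_, _, _, x9 t x y z⟩
  · exact ⟨_, _, _, x1 t x y z⟩
  · exact ⟨_, _, _, x0 t x y z⟩

lemma T_vv {h : GL chevD4.Idx K} (hh : h ∈ chevD4.diagonalSubgroup K) (x y z : K) :
    (h : Matrix chevD4.Idx chevD4.Idx K) *ᵥ vv x y z = vv (ev h ⟨18, by decide⟩ * x) (ev h ⟨19, by decide⟩ * y) (ev h ⟨6, by decide⟩ * z) := by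
  obtain ⟨χ, rfl⟩ := exists_tor hD4 hh
  have e18 := tD_mulVec_eB (D := chevD4) χ (s := 18) (by decide)
  have e19 := tD_mulVec_eB (D := chevD4) χ (s := 19) (by decide)
  have e6 := tD_mulVec_eB (D := chevD4) χ (s := 6) (by decide)
  rw [ChevU.coe_torHom, ev_torHom, ev_torHom, ev_torHom]
  unfold vv
  rw [Matrix.mulVec_add, Matrix.mulVec_add, Matrix.mulVec_smul, Matrix.mulVec_smul, Matrix.mulVec_smul, e18, e19, e6]
  module

lemma pres_inv [Finite K] {g : GL chevD4.Idx K} (hg : Pres g) : Pres g⁻¹ := by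
  have key : ∀ n : ℕ, Pres (g ^ n) := by
    intro n
    induction n with
    | zero => intro x y z; exact ⟨x, y, z, by simp⟩
    | succ n ih => rw [pow_succ]; exact pres_mul ih hg
  have : Finite (GL chevD4.Idx K) := inferInstance
  have h1 : g⁻¹ = g ^ (orderOf g - 1) := by
    rw [inv_eq_iff_mul_eq_one, ← pow_succ', Nat.sub_add_cancel (orderOf_pos g), pow_orderOf_eq_one]
  rw [h1]; exact key _

lemma pres_LL [Finite K] {b g : GL chevD4.Idx K} (hb : Pres b) (hg : g ∈ LL K b) : Pres g := by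
  unfold LL at hg
  induction hg using Subgroup.closure_induction with
  | mem g hg =>
    rcases hg with hg | ⟨r, hr, t, rfl⟩ | rfl
    · intro x y z; exact ⟨_, _, _, T_vv hg x y z⟩
    · exact pres_x hr t
    · exact hb
  | one => intro x y z; exact ⟨x, y, z, by simp⟩
  | mul g h _ _ ih1 ih2 => exact pres_mul ih1 ih2
  | inv g _ ih => exact pres_inv ih

/-- transitivity -/
lemma trans (b : GL chevD4.Idx K) {x y z : K} (h : ¬ (x = 0 ∧ y = 0 ∧ z = 0)) :
    ∃ g ∈ LL K b, (g : Matrix chevD4.Idx chevD4.Idx K) *ᵥ vv x y z = vv 0 0 1 := by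
  have ce : ∀ (r : ℕ) (t : K), ((xU (good_of_mem hD4).toGood2 r t : GL chevD4.Idx K) : Matrix chevD4.Idx chevD4.Idx K) = chevD4.x K r t :=
    fun r t => rfl
  have stepB : ∀ x y z : K, x ≠ 0 → ∃ g ∈ LL K b, (g : Matrix chevD4.Idx chevD4.Idx K) *ᵥ vv x y z = vv 0 0 1 := by
    intro x y z hx
    refine ⟨xU (good_of_mem hD4).toGood2 23 y * (xU (good_of_mem hD4).toGood2 22 x * xU (good_of_mem hD4).toGood2 1 ((z - 1) / x)),
      mul_mem (x_mem b (by simp) _) (mul_mem (x_mem b (by simp) _) (x_mem b (by simp) _)), ?_⟩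
    rw [Units.val_mul, Units.val_mul, ← Matrix.mulVec_mulVec, ← Matrix.mulVec_mulVec, ce, ce, ce, x1, x22, x23]
    have e1 : z - (z - 1) / x * x = 1 := by field_simp; ring
    rw [e1]; simp
  by_cases hx : x = 0
  · by_cases hz : z = 0
    · have hy : y ≠ 0 := fun hy => h ⟨hx, hy, hz⟩
      obtain ⟨g, hg, e⟩ := stepB (x + 1 * y) y z (by rw [hx, zero_add, one_mul]; exact hy)
      refine ⟨g * xU (good_of_mem hD4).toGood2 9 1, mul_mem hg (x_mem b (by simp) _), ?_⟩
      rw [Units.val_mul, ← Matrix.mulVec_mulVec, ce, x9, e]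
    · obtain ⟨g, hg, e⟩ := stepB (x - 1 * z) y z (by rw [hx, zero_sub, one_mul]; exact neg_ne_zero.2 hz)
      refine ⟨g * xU (good_of_mem hD4).toGood2 22 1, mul_mem hg (x_mem b (by simp) _), ?_⟩
      rw [Units.val_mul, ← Matrix.mulVec_mulVec, ce, x22, e]
  · exact stepB x y z hx


/-- counting by fibres -/
theorem card_fiber {G X : Type*} [Group G] {L S : Subgroup G} [Finite L] (f : G → X)
    (hf : ∀ g ∈ L, ∀ h ∈ L, f g = f h ↔ g⁻¹ * h ∈ S) (hS : S ≤ L) :
    Nat.card L = Nat.card S * Nat.card (f '' (L : Set G)) := by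
  have h1 := Subgroup.card_eq_card_quotient_mul_card_subgroup (S.subgroupOf L)
  rw [Nat.card_congr (Subgroup.subgroupOfEquivOfLe hS).toEquiv, mul_comm] at h1
  rw [h1]
  congr 1
  refine Nat.card_congr (Equiv.ofBijective (fun q : L ⧸ S.subgroupOf L =>
    Quotient.liftOn' q (fun g : L => (⟨f g, g, g.2, rfl⟩ : f '' (L : Set G))) ?_) ⟨?_, ?_⟩)
  · intro g h hgh
    rw [QuotientGroup.leftRel_apply] at hgh
    exact Subtype.ext ((hf g g.2 h h.2).2 hgh)
  · intro x y
    induction x using QuotientGroup.induction_on with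
    | H g =>
      induction y using QuotientGroup.induction_on with
      | H h =>
        intro e
        have e' : f g = f h := congrArg Subtype.val e
        rw [QuotientGroup.eq, Subgroup.mem_subgroupOf]
        exact (hf g g.2 h h.2).1 e'
  · rintro ⟨_, g, hg, rfl⟩
    exact ⟨QuotientGroup.mk (⟨g, hg⟩ : L), rfl⟩

lemma mulVec_inj {g : GL chevD4.Idx K} {v w : chevD4.Idx → K}
    (h : (g : Matrix chevD4.Idx chevD4.Idx K) *ᵥ v = (g : Matrix chevD4.Idx chevD4.Idx K) *ᵥ w) : v = w := by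
  have h1 := congrArg (fun u => ((g⁻¹ : GL chevD4.Idx K) : Matrix chevD4.Idx chevD4.Idx K) *ᵥ u) h
  simp only [Matrix.mulVec_mulVec, ← Units.val_mul, inv_mul_cancel, Units.val_one, Matrix.one_mulVec] at h1
  exact h1

lemma vv_smul (c x y z : K) : vv (c * x) (c * y) (c * z) = c • vv x y z := by
  unfold vv; module

/-- the vector stabiliser -/
def SS (K : Type*) [Field K] (b : GL chevD4.Idx K) : Subgroup (GL chevD4.Idx K) where
  carrier := {g | g ∈ LL K b ∧ (g : Matrix chevD4.Idx chevD4.Idx K) *ᵥ vv 0 0 1 = vv 0 0 1}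
  one_mem' := ⟨one_mem _, by simp⟩
  mul_mem' := by
    rintro g h ⟨h1, h2⟩ ⟨h3, h4⟩
    exact ⟨mul_mem h1 h3, by rw [Units.val_mul, ← Matrix.mulVec_mulVec, h4, h2]⟩
  inv_mem' := by
    rintro g ⟨h1, h2⟩
    refine ⟨inv_mem h1, mulVec_inj (g := g) ?_⟩
    rw [Matrix.mulVec_mulVec, ← Units.val_mul, mul_inv_cancel, Units.val_one, Matrix.one_mulVec, h2]

/-- the line stabiliser -/
def PP (K : Type*) [Field K] (b : GL chevD4.Idx K) : Subgroup (GL chevD4.Idx K) where
  carrier := {g | g ∈ LL K b ∧ ∃ z : K, z ≠ 0 ∧ (g : Matrix chevD4.Idx chevD4.Idx K) *ᵥ vv 0 0 1 = vv 0 0 z}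
  one_mem' := ⟨one_mem _, 1, one_ne_zero, by simp⟩
  mul_mem' := by
    rintro g h ⟨h1, z, hz, h2⟩ ⟨h3, w, hw, h4⟩
    refine ⟨mul_mem h1 h3, w * z, mul_ne_zero hw hz, ?_⟩
    have e1 := vv_smul w (0 : K) 0 1
    have e2 := vv_smul w (0 : K) 0 z
    simp only [mul_zero, mul_one] at e1 e2
    rw [Units.val_mul, ← Matrix.mulVec_mulVec, h4, e1, Matrix.mulVec_smul, h2, e2]
  inv_mem' := by
    rintro g ⟨h1, z, hz, h2⟩
    refine ⟨inv_mem h1, z⁻¹, inv_ne_zero hz, mulVec_inj (g := g) ?_⟩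
    have e1 := vv_smul z⁻¹ (0 : K) 0 1
    have e2 := vv_smul z⁻¹ (0 : K) 0 z
    simp only [mul_zero, mul_one, inv_mul_cancel₀ hz] at e1 e2
    rw [Matrix.mulVec_mulVec, ← Units.val_mul, mul_inv_cancel, Units.val_one, Matrix.one_mulVec, e1, Matrix.mulVec_smul,
      h2, e2]

lemma SS_le_PP (b : GL chevD4.Idx K) : SS K b ≤ PP K b := fun _ hg => ⟨hg.1, 1, one_ne_zero, hg.2⟩
lemma PP_le (b : GL chevD4.Idx K) : PP K b ≤ LL K b := fun _ hg => hg.1

lemma T_le_PP (b : GL chevD4.Idx K) : chevD4.diagonalSubgroup K ≤ PP K b := by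
  intro h hh
  refine ⟨T_le b hh, ev h ⟨6, by decide⟩, ev_ne_zero hD4 hh _, ?_⟩
  rw [T_vv hh]; simp

variable [Fintype K]

lemma fib {b : GL chevD4.Idx K} {L : Subgroup (GL chevD4.Idx K)} (hL : L ≤ LL K b) :
    ∀ g ∈ L, ∀ h ∈ L, (fun g : GL chevD4.Idx K => (g : Matrix chevD4.Idx chevD4.Idx K) *ᵥ vv 0 0 1) g =
      (fun g : GL chevD4.Idx K => (g : Matrix chevD4.Idx chevD4.Idx K) *ᵥ vv 0 0 1) h ↔ g⁻¹ * h ∈ SS K b := by
  intro g hg h hh
  constructor
  · intro e
    refine ⟨mul_mem (inv_mem (hL hg)) (hL hh), mulVec_inj (g := g) ?_⟩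
    rw [Matrix.mulVec_mulVec, ← Units.val_mul, mul_inv_cancel_left]
    exact e.symm
  · rintro ⟨-, e⟩
    have h1 : h = g * (g⁻¹ * h) := by group
    simp only
    conv_rhs => rw [h1]
    rw [Units.val_mul, ← Matrix.mulVec_mulVec, e]

lemma card_LL {b : GL chevD4.Idx K} (hb : Pres b) :
    Nat.card (LL K b) = Nat.card (SS K b) * (Fintype.card K ^ 3 - 1) := by
  classical
  have : Finite (GL chevD4.Idx K) := inferInstance
  rw [card_fiber (L := LL K b) (S := SS K b) _ (fib le_rfl) (fun _ hg => hg.1)]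
  congr 1
  have h1 : Nat.card ((fun g : GL chevD4.Idx K => (g : Matrix chevD4.Idx chevD4.Idx K) *ᵥ vv 0 0 1) '' (LL K b : Set (GL chevD4.Idx K))) =
      Nat.card {c : K × K × K // c ≠ 0} := by
    symm
    refine Nat.card_congr (Equiv.ofBijective (fun c : {c : K × K × K // c ≠ 0} =>
      (⟨vv c.1.1 c.1.2.1 c.1.2.2, ?_⟩ : ((fun g : GL chevD4.Idx K => (g : Matrix chevD4.Idx chevD4.Idx K) *ᵥ vv 0 0 1) '' (LL K b : Set (GL chevD4.Idx K))))) ⟨?_, ?_⟩)
    · obtain ⟨⟨x, y, z⟩, hc⟩ := c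
      obtain ⟨g, hg, e⟩ := trans b (x := x) (y := y) (z := z) (by rintro ⟨rfl, rfl, rfl⟩; exact hc rfl)
      refine ⟨g⁻¹, inv_mem hg, mulVec_inj (g := g) ?_⟩
      simp only
      rw [Matrix.mulVec_mulVec, ← Units.val_mul, mul_inv_cancel, Units.val_one, Matrix.one_mulVec, e]
    · rintro ⟨⟨x, y, z⟩, hc⟩ ⟨⟨x', y', z'⟩, hc'⟩ e
      obtain ⟨h1, h2, h3⟩ := vv_inj (congrArg Subtype.val e)
      simp only at h1 h2 h3
      subst h1; subst h2; subst h3; rfl
    · rintro ⟨_, g, hg, rfl⟩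
      obtain ⟨x, y, z, e⟩ := pres_LL hb hg 0 0 1
      refine ⟨⟨(x, y, z), ?_⟩, Subtype.ext e.symm⟩
      intro h0
      simp only [Prod.mk_eq_zero] at h0
      obtain ⟨rfl, rfl, rfl⟩ := h0
      have h1 : vv (0 : K) 0 1 = 0 := by
        apply mulVec_inj (g := g)
        rw [e, Matrix.mulVec_zero]; simp [vv]
      have h2 := congrFun h1 (Sum.inr (⟨6, by decide⟩ : Fin chevD4.nroots))
      rw [vv_6] at h2
      exact one_ne_zero h2
  rw [h1, Nat.card_eq_fintype_card, Fintype.card_subtype_compl, Fintype.card_prod, Fintype.card_prod]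
  simp only [Fintype.card_unique]
  congr 1; ring

lemma card_PP (b : GL chevD4.Idx K) :
    Nat.card (PP K b) = Nat.card (SS K b) * (Fintype.card K - 1) := by
  classical
  have : Finite (GL chevD4.Idx K) := inferInstance
  rw [card_fiber (L := PP K b) (S := SS K b) _ (fib (PP_le b)) (SS_le_PP b)]
  congr 1
  have h1 : Nat.card ((fun g : GL chevD4.Idx K => (g : Matrix chevD4.Idx chevD4.Idx K) *ᵥ vv 0 0 1) '' (PP K b : Set (GL chevD4.Idx K))) =
      Nat.card {c : K // c ≠ 0} := by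
    symm
    refine Nat.card_congr (Equiv.ofBijective (fun c : {c : K // c ≠ 0} =>
      (⟨vv 0 0 c.1, ?_⟩ : ((fun g : GL chevD4.Idx K => (g : Matrix chevD4.Idx chevD4.Idx K) *ᵥ vv 0 0 1) '' (PP K b : Set (GL chevD4.Idx K))))) ⟨?_, ?_⟩)
    · obtain ⟨z, hz⟩ := c
      obtain ⟨g, hg, e⟩ := trans b (x := 0) (y := 0) (z := z) (by rintro ⟨-, -, rfl⟩; exact hz rfl)
      have e' : ((g⁻¹ : GL chevD4.Idx K) : Matrix chevD4.Idx chevD4.Idx K) *ᵥ vv 0 0 1 = vv 0 0 z := by
        apply mulVec_inj (g := g)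
        rw [Matrix.mulVec_mulVec, ← Units.val_mul, mul_inv_cancel, Units.val_one, Matrix.one_mulVec, e]
      exact ⟨g⁻¹, ⟨inv_mem hg, z, hz, e'⟩, e'⟩
    · rintro ⟨z, hc⟩ ⟨z', hc'⟩ e
      obtain ⟨-, -, h3⟩ := vv_inj (congrArg Subtype.val e)
      exact Subtype.ext h3
    · rintro ⟨_, g, ⟨hg, z, hz, e⟩, rfl⟩
      exact ⟨⟨z, hz⟩, Subtype.ext e.symm⟩
  rw [h1, Nat.card_eq_fintype_card, Fintype.card_subtype_compl]
  simp

theorem index_PP {b : GL chevD4.Idx K} (hb : b ∈ chevD4.group K) (hP : Pres b) (h3 : 3 ∣ Fintype.card K - 1) :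
    ¬ 3 ∣ ((chevD4.diagonalSubgroup K).subgroupOf (PP K b)).index := by
  classical
  have : Finite (GL chevD4.Idx K) := inferInstance
  set Q := Fintype.card K with hQ
  have hcG := Cfsg.Agent.S1061.result hQ.symm (F := K)
  have hcT : Nat.gcd 2 (Q - 1) ^ 2 * Nat.card (chevD4.diagonalSubgroup K) = (Q - 1) ^ 4 :=
    Cfsg.Agent.ChevU.card_diag (F := K) hQ.symm (chevD4, Nat.gcd 2 (Q - 1) ^ 2) (by simp)
  have h4 := Subgroup.card_mul_index ((chevD4.diagonalSubgroup K).subgroupOf (PP K b))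
  rw [Nat.card_congr (Subgroup.subgroupOfEquivOfLe (T_le_PP b)).toEquiv] at h4
  have h5 := Subgroup.card_mul_index ((LL K b).subgroupOf (chevD4.group K))
  rw [Nat.card_congr (Subgroup.subgroupOfEquivOfLe (LL_le hb)).toEquiv] at h5
  have h6 := card_LL (b := b) hP
  have h7 := card_PP (K := K) b
  generalize ((chevD4.diagonalSubgroup K).subgroupOf (PP K b)).index = I at h4 ⊢
  generalize ((LL K b).subgroupOf (chevD4.group K)).index = J at h5
  generalize Nat.card (LL K b) = cL at h5 h6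
  generalize Nat.card (PP K b) = cP at h4 h7
  generalize Nat.card (SS K b) = cS at h6 h7
  generalize Nat.card (chevD4.diagonalSubgroup K) = cT at h4 hcT
  generalize Nat.card (chevD4.group K) = cG at h5 hcG
  generalize Nat.gcd 2 (Q - 1) ^ 2 = g at hcG hcT
  have hQ2 : 2 ≤ Q := by rw [hQ]; exact Fintype.one_lt_card
  obtain ⟨m, hm⟩ := h3
  have hm0 : 0 < m := by
    rcases Nat.eq_zero_or_pos m with h | h
    · rw [h] at hm; omega
    · exact h
  have hQm : Q = 3 * m + 1 := by omega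
  rw [← hQ] at h6 h7
  rw [hQm] at hcG hcT h6 h7
  have e1 : 3 * m + 1 - 1 = 3 * m := rfl
  have e2 : (3 * m + 1) ^ 2 - 1 = 3 * m * (3 * m + 2) := by
    apply Nat.sub_eq_of_eq_add; ring
  have e3 : (3 * m + 1) ^ 3 - 1 = 3 * m * (9 * m ^ 2 + 9 * m + 3) := by
    apply Nat.sub_eq_of_eq_add; ring
  have e4 : (3 * m + 1) ^ 4 - 1 = 3 * m * (3 * m + 2) * ((3 * m + 1) ^ 2 + 1) := by
    apply Nat.sub_eq_of_eq_add; ring
  have e6 : (3 * m + 1) ^ 6 - 1 = 3 * m * (9 * m ^ 2 + 9 * m + 3) * ((3 * m + 1) ^ 3 + 1) := by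
    apply Nat.sub_eq_of_eq_add; ring
  rw [e2, e4, e6] at hcG
  rw [e1] at hcT h7
  rw [e3] at h6
  have h8 : I * J = (3 * m + 1) ^ 12 * (3 * m + 2) ^ 3 * ((3 * m + 1) ^ 2 + 1) ^ 2 * ((3 * m + 1) ^ 3 + 1) := by
    apply Nat.eq_of_mul_eq_mul_left (show 0 < (3 * m) ^ 4 * (9 * m ^ 2 + 9 * m + 3) by positivity)
    calc (3 * m) ^ 4 * (9 * m ^ 2 + 9 * m + 3) * (I * J) = (g * cT) * (9 * m ^ 2 + 9 * m + 3) * (I * J) := by rw [hcT]
      _ = g * (9 * m ^ 2 + 9 * m + 3) * J * (cT * I) := by ring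
      _ = g * (9 * m ^ 2 + 9 * m + 3) * J * (cS * (3 * m)) := by rw [h4, h7]
      _ = g * ((cS * (3 * m * (9 * m ^ 2 + 9 * m + 3))) * J) := by ring
      _ = g * cG := by rw [← h6, h5]
      _ = _ := by rw [hcG]; ring
  intro hI
  obtain ⟨I', rfl⟩ := hI
  have h9 : (((3 * m + 1) ^ 12 * (3 * m + 2) ^ 3 * ((3 * m + 1) ^ 2 + 1) ^ 2 * ((3 * m + 1) ^ 3 + 1) : ℕ) : ZMod 3) = 0 := by
    rw [← h8, ZMod.natCast_eq_zero_iff]
    exact Dvd.intro (I' * J) (by ring)
  have h10 : ∀ y : ZMod 3, (3 * y + 1) ^ 12 * (3 * y + 2) ^ 3 * ((3 * y + 1) ^ 2 + 1) ^ 2 * ((3 * y + 1) ^ 3 + 1) ≠ 0 := by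
    decide
  apply h10 (m : ZMod 3)
  rw [← h9]
  push_cast
  ring

/-- diagonalisation -/
theorem exists_conj {b : GL chevD4.Idx K} (hb : b ∈ chevD4.group K) (hP : Pres b) (h3 : 3 ∣ Fintype.card K - 1)
    (hb3 : b ^ 3 = 1) {x y z : K} (h0 : ¬ (x = 0 ∧ y = 0 ∧ z = 0))
    (hv : (b : Matrix chevD4.Idx chevD4.Idx K) *ᵥ vv x y z = vv x y z) :
    ∃ g ∈ LL K b, g * b * g⁻¹ ∈ chevD4.diagonalSubgroup K := by
  classical
  have : Finite (GL chevD4.Idx K) := inferInstance
  have : Fact (Nat.Prime 3) := ⟨Nat.prime_three⟩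
  obtain ⟨g, hg, e⟩ := trans b h0
  have h1 : g * b * g⁻¹ ∈ PP K b := by
    refine ⟨mul_mem (mul_mem hg (b_mem b)) (inv_mem hg), 1, one_ne_zero, ?_⟩
    rw [Units.val_mul, Units.val_mul, ← Matrix.mulVec_mulVec, ← Matrix.mulVec_mulVec]
    have e2 : ((g⁻¹ : GL chevD4.Idx K) : Matrix chevD4.Idx chevD4.Idx K) *ᵥ vv 0 0 1 = vv x y z := by
      apply mulVec_inj (g := g)
      rw [Matrix.mulVec_mulVec, ← Units.val_mul, mul_inv_cancel, Units.val_one, Matrix.one_mulVec, e]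
    rw [e2, hv, e]
  set b1 : PP K b := ⟨g * b * g⁻¹, h1⟩ with hb1
  have hP1 : IsPGroup 3 (Subgroup.zpowers b1) := by
    intro w
    refine ⟨1, Subtype.ext ?_⟩
    obtain ⟨k, hk⟩ := w.2
    have hk' : b1 ^ k = (w : PP K b) := hk
    rw [Subgroup.coe_pow, ← hk', pow_one, ← zpow_natCast, ← _root_.zpow_mul, mul_comm, _root_.zpow_mul]
    have : b1 ^ ((3 : ℕ) : ℤ) = 1 := by
      rw [zpow_natCast]
      apply Subtype.ext
      rw [Subgroup.coe_pow, hb1]
      change (g * b * g⁻¹) ^ 3 = 1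
      rw [conj_pow, hb3]; simp
    rw [this, _root_.one_zpow]; rfl
  obtain ⟨h, hh⟩ := conj_into (index_PP hb hP h3) hP1
  have h2 := hh b1 (Subgroup.mem_zpowers b1)
  rw [Subgroup.mem_subgroupOf] at h2
  refine ⟨(h : GL chevD4.Idx K)⁻¹ * g, mul_mem (inv_mem (PP_le b h.2)) hg, ?_⟩
  have e3 : (h : GL chevD4.Idx K)⁻¹ * g * b * ((h : GL chevD4.Idx K)⁻¹ * g)⁻¹ = ((h⁻¹ * b1 * h : PP K b) : GL chevD4.Idx K) := by
    simp only [Subgroup.coe_mul, Subgroup.coe_inv, hb1]
    group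
  rw [e3]; exact h2

end Cfsg.Agent.H51.D4Diag
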