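import Cfsg.Agent.H51.D4Diag

set_option autoImplicit false
set_option maxRecDepth 100000

/-!
No reflection on a non-toral subgroup of order nine in the triality group: reduction to the Weyl group of type D4.
-/

namespace Cfsg.Agent.H51.D4Diag

open Matrix Cfsg.Lie Cfsg.Agent.Chev Cfsg.Agent.ChevGrp Cfsg.Agent.ChevF Cfsg.Agent.H51.TwoPrime Cfsg.Agent.H51.ChevFus
  Cfsg.Agent.H51.F4W Cfsg.Agent.H51.D4W Cfsg.Agent.H51.G2W

/-- fundamental reflections in rank four -/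
def RmD (i : Fin 4) : Matrix (Fin 4) (Fin 4) ℤ := Rm chevD4 i

lemma RmD_eq : ∀ i : Fin 4, RmD i = M4.toMat (([S0, S1, S2, S3] : List M4).get ⟨i, i.2⟩) := by decide +kernel

/-- the matrix of a Weyl group element, in rank four -/
noncomputable def wmD (u : Equiv.Perm (Fin chevD4.nroots)) : Matrix (Fin 4) (Fin 4) ℤ := wm DData.dD4 u

/-- fundamental reflections as permutations -/
noncomputable def wD (i : Fin 4) : Equiv.Perm (Fin chevD4.nroots) := DData.dD4.rp.wsys.w i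

/-- fundamental roots -/
noncomputable def pD (i : Fin 4) : Fin chevD4.nroots := DData.dD4.rp.wsys.p i

lemma wmD_w (i : Fin 4) (u : Equiv.Perm (Fin chevD4.nroots)) : wmD (wD i * u) = RmD i * wmD u :=
  wm_w_mul DData.dD4 (good_of_mem hD4) i u

lemma wmD_one : wmD 1 = 1 := wm_one DData.dD4 (good_of_mem hD4)

lemma wmD_mul {u v : Equiv.Perm (Fin chevD4.nroots)} (hu : u ∈ DData.dD4.rp.wsys.W) : wmD (u * v) = wmD u * wmD v :=
  wm_mul DData.dD4 (good_of_mem hD4) hu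

lemma wmD_inj {u v : Equiv.Perm (Fin chevD4.nroots)} (hu : u ∈ DData.dD4.rp.wsys.W) (hv : v ∈ DData.dD4.rp.wsys.W)
    (h : wmD u = wmD v) : u = v := wm_inj DData.dD4 (good_of_mem hD4) hu hv h

lemma WD_ind {Q : Equiv.Perm (Fin chevD4.nroots) → Prop} (h1 : Q 1)
    (h2 : ∀ i : Fin 4, ∀ u ∈ DData.dD4.rp.wsys.W, Q u → Q (wD i * u))
    {u : Equiv.Perm (Fin chevD4.nroots)} (hu : u ∈ DData.dD4.rp.wsys.W) : Q u :=
  DData.dD4.rp.wsys.W_induction (Q := Q) h1 (fun i u hu h => h2 i u hu h) hu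

theorem mem_LW {u : Equiv.Perm (Fin chevD4.nroots)} (hu : u ∈ DData.dD4.rp.wsys.W) : ∃ x ∈ LW, wmD u = x.toMat := by
  refine WD_ind (Q := fun u => ∃ x ∈ LW, wmD u = x.toMat) ?_ ?_ hu
  · exact ⟨M4.one, by decide +kernel, by rw [wmD_one, M4.toMat_one]⟩
  · rintro i u - ⟨x, hx, h⟩
    have hc := clo
    rw [List.all_eq_true] at hc
    have h1 := hc (([S0, S1, S2, S3] : List M4).get ⟨i, i.2⟩) (List.get_mem _ _)
    rw [List.all_eq_true] at h1
    have h2 := h1 x hx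
    rw [List.any_eq_true] at h2
    obtain ⟨y, hy, h3⟩ := h2
    have h3 := of_decide_eq_true h3
    refine ⟨y, hy, ?_⟩
    rw [wmD_w, RmD_eq, h, ← M4.toMat_mul, h3]

variable {K : Type*} [Field K]

theorem evF {a : GL chevD4.Idx K} (ha : a ∈ chevD4.diagonalSubgroup K) (s : Fin chevD4.nroots) :
    ev a s = ev a (pD 0) ^ vec chevD4 s 0 * ev a (pD 1) ^ vec chevD4 s 1 * ev a (pD 2) ^ vec chevD4 s 2 *
      ev a (pD 3) ^ vec chevD4 s 3 := by
  have h := ev_eq_prod DData.dD4 hD4 ha s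
  rw [h]
  exact Fin.prod_univ_four (fun i : Fin 4 => ev a (pD i) ^ vec chevD4 s i)

/-- exponents of a diagonal element -/
def Ex (X : K) (a : GL chevD4.Idx K) (e : ℤ × ℤ × ℤ × ℤ) : Prop :=
  ev a (pD 0) = X ^ e.1 ∧ ev a (pD 1) = X ^ e.2.1 ∧ ev a (pD 2) = X ^ e.2.2.1 ∧ ev a (pD 3) = X ^ e.2.2.2

theorem ex_root {X : K} (hX : X ≠ 0) {a : GL chevD4.Idx K} (ha : a ∈ chevD4.diagonalSubgroup K) {e : ℤ × ℤ × ℤ × ℤ}
    (h : Ex X a e) (s : Fin chevD4.nroots) : ev a s =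
      X ^ (e.1 * vec chevD4 s 0 + e.2.1 * vec chevD4 s 1 + e.2.2.1 * vec chevD4 s 2 + e.2.2.2 * vec chevD4 s 3) := by
  obtain ⟨h0, h1, h2, h3⟩ := h
  rw [evF ha s, h0, h1, h2, h3, ← _root_.zpow_mul, ← _root_.zpow_mul, ← _root_.zpow_mul, ← _root_.zpow_mul, ← zpow_add₀ hX, ← zpow_add₀ hX,
    ← zpow_add₀ hX]

lemma zp3 {X : K} (h3 : X ^ 3 = 1) (h1 : X ≠ 1) {m n : ℤ} (h : X ^ m = X ^ n) : m % 3 = n % 3 := by
  have hX : X ≠ 0 := by
    rintro rfl
    exact one_ne_zero (h3.symm.trans (by norm_num)) 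
  have ho : orderOf (Units.mk0 X hX) = 3 := by
    haveI : Fact (Nat.Prime 3) := ⟨Nat.prime_three⟩
    apply orderOf_eq_prime
    · exact Units.ext (by simpa using h3)
    · intro h; exact h1 (by simpa using congrArg Units.val h)
  have h2 : (Units.mk0 X hX) ^ m = (Units.mk0 X hX) ^ n := Units.ext (by simpa using h)
  rw [zpow_eq_zpow_iff_modEq, ho] at h2
  exact_mod_cast h2

/-- the action on exponents -/
theorem ex_col {u : Equiv.Perm (Fin chevD4.nroots)} {x : M4} (hx : wmD u = x.toMat) (j : Fin 4) :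
    (vec chevD4 (u (pD j)) 0 = x.toMat 0 j ∧ vec chevD4 (u (pD j)) 1 = x.toMat 1 j ∧
      vec chevD4 (u (pD j)) 2 = x.toMat 2 j ∧ vec chevD4 (u (pD j)) 3 = x.toMat 3 j) := by
  have h : ∀ i : Fin 4, vec chevD4 (u (pD j)) i = wmD u i j := fun i => rfl
  refine ⟨?_, ?_, ?_, ?_⟩
  · rw [← hx]; exact h 0
  · rw [← hx]; exact h 1
  · rw [← hx]; exact h 2
  · rw [← hx]; exact h 3

/-- values at the images of the fundamental roots -/
theorem ex_img {X : K} (hX : X ≠ 0) {a : GL chevD4.Idx K} (ha : a ∈ chevD4.diagonalSubgroup K) {e : ℤ × ℤ × ℤ × ℤ}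
    (h : Ex X a e) {u : Equiv.Perm (Fin chevD4.nroots)} {x : M4} (hx : wmD u = x.toMat) (j : Fin 4) :
    ev a (u (pD j)) = X ^ (e.1 * x.toMat 0 j + e.2.1 * x.toMat 1 j + e.2.2.1 * x.toMat 2 j + e.2.2.2 * x.toMat 3 j) := by
  obtain ⟨h0, h1, h2, h3⟩ := ex_col hx j
  rw [ex_root hX ha h, h0, h1, h2, h3]

/-- if the values at the images are the given powers -/
theorem act_of {X : K} (h3 : X ^ 3 = 1) (h1 : X ≠ 1) {a : GL chevD4.Idx K} (ha : a ∈ chevD4.diagonalSubgroup K)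
    {e f : ℤ × ℤ × ℤ × ℤ} (h : Ex X a e) {u : Equiv.Perm (Fin chevD4.nroots)} {x : M4} (hx : wmD u = x.toMat)
    (h0' : ev a (u (pD 0)) = X ^ f.1) (h1' : ev a (u (pD 1)) = X ^ f.2.1) (h2' : ev a (u (pD 2)) = X ^ f.2.2.1)
    (h3' : ev a (u (pD 3)) = X ^ f.2.2.2) : act e x = (f.1 % 3, f.2.1 % 3, f.2.2.1 % 3, f.2.2.2 % 3) := by
  have hX : X ≠ 0 := by
    rintro rfl
    exact one_ne_zero (h3.symm.trans (by norm_num))
  have k0 := zp3 h3 h1 ((ex_img hX ha h hx 0).symm.trans h0')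
  have k1 := zp3 h3 h1 ((ex_img hX ha h hx 1).symm.trans h1')
  have k2 := zp3 h3 h1 ((ex_img hX ha h hx 2).symm.trans h2')
  have k3 := zp3 h3 h1 ((ex_img hX ha h hx 3).symm.trans h3')
  unfold act
  rw [← k0, ← k1, ← k2, ← k3]
  rfl

end Cfsg.Agent.H51.D4Diag
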