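import Cfsg.Agent.H51.F4W
import Cfsg.Agent.ChevF.Tor1

set_option autoImplicit false
set_option maxRecDepth 100000

/-!
The Weyl group of type F4 of a Chevalley datum: order condition for the matrices and permutations.
-/

namespace Cfsg.Agent.H51.F4W

open Matrix Cfsg.Lie Cfsg.Agent.Chev Cfsg.Agent.ChevGrp Cfsg.Agent.ChevF M4

theorem toMat_inj {x y : M4} (h : x.toMat = y.toMat) : x = y := by
  have e : ∀ i j : Fin 4, x.toMat i j = y.toMat i j := fun i j => by rw [h]
  have e00 := e 0 0; have e01 := e 0 1; have e02 := e 0 2; have e03 := e 0 3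
  have e10 := e 1 0; have e11 := e 1 1; have e12 := e 1 2; have e13 := e 1 3
  have e20 := e 2 0; have e21 := e 2 1; have e22 := e 2 2; have e23 := e 2 3
  have e30 := e 3 0; have e31 := e 3 1; have e32 := e 3 2; have e33 := e 3 3
  ext <;> assumption

theorem clo_step {G L G' : List M4} (h : clo G L G' = true) {r a : M4} (hr : r ∈ G) (ha : a ∈ L) :
    ∃ a' ∈ L, ∃ r' ∈ G', r.mul a = a'.mul r' := by
  unfold clo at h
  rw [List.all_eq_true] at h
  have h1 := h r hr
  rw [List.all_eq_true] at h1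
  have h2 := h1 a ha
  rw [List.any_eq_true] at h2
  obtain ⟨a', ha', h3⟩ := h2
  rw [List.any_eq_true] at h3
  obtain ⟨r', hr', h4⟩ := h3
  exact ⟨a', ha', r', hr', of_decide_eq_true h4⟩

/-- the set of matrices -/
def Inn (M : Matrix (Fin 4) (Fin 4) ℤ) : Prop :=
  ∃ a ∈ LA, ∃ b ∈ LB, ∃ c ∈ LC, ∃ d ∈ LD, M = toMat (a.mul (b.mul (c.mul d)))

theorem inn_one : Inn 1 := by
  refine ⟨one, ?_, one, ?_, one, ?_, one, ?_, ?_⟩
  · decide +kernel
  · decide +kernel
  · decide +kernel
  · decide +kernel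
  · decide +kernel

theorem inn_mul {r : M4} (hr : r ∈ [one, R0, R1, R2, R3]) {M : Matrix (Fin 4) (Fin 4) ℤ} (hM : Inn M) :
    Inn (r.toMat * M) := by
  obtain ⟨a, ha, b, hb, c, hc, d, hd, rfl⟩ := hM
  obtain ⟨a', ha', r1, hr1, e1⟩ := clo_step clo4 hr ha
  obtain ⟨b', hb', r2, hr2, e2⟩ := clo_step clo3 hr1 hb
  obtain ⟨c', hc', r3, hr3, e3⟩ := clo_step clo2 hr2 hc
  obtain ⟨d', hd', r4, hr4, e4⟩ := clo_step clo1 hr3 hd
  have h4 : r4 = one := by simpa using hr4
  subst h4
  refine ⟨a', ha', b', hb', c', hc', d', hd', ?_⟩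
  have f1 := congrArg toMat e1
  have f2 := congrArg toMat e2
  have f3 := congrArg toMat e3
  have f4 := congrArg toMat e4
  simp only [toMat_mul, toMat_one, mul_one] at f1 f2 f3 f4 ⊢
  rw [← mul_assoc, f1, mul_assoc, ← mul_assoc r1.toMat, f2, mul_assoc b'.toMat, ← mul_assoc r2.toMat, f3,
    mul_assoc c'.toMat, f4]

theorem chk_inn {M : Matrix (Fin 4) (Fin 4) ℤ} (hM : Inn M) : M ^ 8 = 1 ∨ M ^ 6 = 1 ∨ M ^ 6 = -1 := by
  obtain ⟨a, ha, b, hb, c, hc, d, hd, rfl⟩ := hM
  have h := chk_all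
  rw [List.all_eq_true] at h
  have h := h a ha
  rw [List.all_eq_true] at h
  have h := h b hb
  rw [List.all_eq_true] at h
  have h := h c hc
  rw [List.all_eq_true] at h
  have h := h d hd
  generalize a.mul (b.mul (c.mul d)) = m at h ⊢
  unfold chk at h
  simp only [Bool.or_eq_true, decide_eq_true_eq] at h
  rcases h with (h | h) | h
  · left
    have := congrArg toMat h
    simp only [toMat_mul, toMat_one] at this
    rw [← this]; simp only [pow_succ, pow_zero, one_mul, mul_assoc]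
  · right; left
    have := congrArg toMat h
    simp only [toMat_mul, toMat_one] at this
    rw [← this]; simp only [pow_succ, pow_zero, one_mul, mul_assoc]
  · right; right
    have := congrArg toMat h
    simp only [toMat_mul, toMat_neg] at this
    rw [← this]; simp only [pow_succ, pow_zero, one_mul, mul_assoc]

lemma hF4 : chevF4 ∈ data := by simp [data]

/-- fundamental reflections in rank four -/
def Rm4 (i : Fin 4) : Matrix (Fin 4) (Fin 4) ℤ := Rm chevF4 i

lemma Rm4_eq : ∀ i : Fin 4, Rm4 i = toMat (([R0, R1, R2, R3] : List M4).get ⟨i, i.2⟩) := by decide +kernel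

variable (E : DData chevF4)

/-- the matrix of a Weyl group element, in rank four -/
noncomputable def wm4 (u : Equiv.Perm (Fin chevF4.nroots)) : Matrix (Fin 4) (Fin 4) ℤ := wm E u

/-- fundamental reflections as permutations -/
noncomputable def w4 (i : Fin 4) : Equiv.Perm (Fin chevF4.nroots) := E.rp.wsys.w i

lemma wm4_w (i : Fin 4) (u : Equiv.Perm (Fin chevF4.nroots)) : wm4 E (w4 E i * u) = Rm4 i * wm4 E u :=
  wm_w_mul E (good_of_mem hF4) i u

lemma W4_ind {Q : Equiv.Perm (Fin chevF4.nroots) → Prop} (h1 : Q 1)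
    (h2 : ∀ i : Fin 4, ∀ u ∈ E.rp.wsys.W, Q u → Q (w4 E i * u))
    {u : Equiv.Perm (Fin chevF4.nroots)} (hu : u ∈ E.rp.wsys.W) : Q u :=
  E.rp.wsys.W_induction (Q := Q) h1 (fun i u hu h => h2 i u hu h) hu

theorem inn_W {u : Equiv.Perm (Fin chevF4.nroots)} (hu : u ∈ E.rp.wsys.W) : Inn (wm4 E u) := by
  refine W4_ind E (Q := fun u => Inn (wm4 E u)) ?_ ?_ hu
  · have : wm4 E 1 = 1 := wm_one E (good_of_mem hF4)
    rw [this]; exact inn_one
  · intro i u _ ih
    rw [wm4_w, Rm4_eq]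
    apply inn_mul _ ih
    exact List.mem_cons_of_mem _ (List.get_mem _ _)

theorem wm4_pow {u : Equiv.Perm (Fin chevF4.nroots)} (hu : u ∈ E.rp.wsys.W) (k : ℕ) : wm4 E (u ^ k) = wm4 E u ^ k :=
  wm_pow E (good_of_mem hF4) hu k

/-- the order condition in the Weyl group -/
theorem orders_W {u : Equiv.Perm (Fin chevF4.nroots)} (hu : u ∈ E.rp.wsys.W) :
    u ^ 8 = 1 ∨ u ^ 6 = 1 ∨ wm4 E (u ^ 6) = -1 := by
  have hone : wm4 E 1 = 1 := wm_one E (good_of_mem hF4)
  rcases chk_inn (inn_W E hu) with h | h | h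
  · left
    rw [← wm4_pow E hu] at h
    exact wm_inj E (good_of_mem hF4) (pow_mem hu 8) (one_mem _) (h.trans hone.symm)
  · right; left
    rw [← wm4_pow E hu] at h
    exact wm_inj E (good_of_mem hF4) (pow_mem hu 6) (one_mem _) (h.trans hone.symm)
  · right; right
    rw [wm4_pow E hu]; exact h

end Cfsg.Agent.H51.F4W
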