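import Cfsg.Agent.H51.ChevFus
import Cfsg.Agent.H51.F4W2
import Cfsg.Agent.ChevF.TorRows
import Cfsg.Agent.ChevGrp.DData

set_option autoImplicit false
set_option maxRecDepth 100000

/-!
Local structure of the groups of type F4 at primes at least 5.
-/

namespace Cfsg.Agent.H51.F4Loc

open Matrix Cfsg.Lie Cfsg.Agent.Chev Cfsg.Agent.ChevGrp Cfsg.Agent.ChevF Cfsg.Agent.H51.TwoPrime Cfsg.Agent.H51.ChevFus
  Cfsg.Agent.H51.F4W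

variable {F : Type*} [Field F] [Fintype F]

theorem not_dvd_W {ℓ : ℕ} (hℓ : ℓ.Prime) (h5 : 5 ≤ ℓ) : ¬ ℓ ∣ Nat.card DData.dF4.rp.wsys.W := by
  rw [card_W_F4]
  intro h
  have h1 : ℓ ∣ 2 ^ 7 * 3 ^ 2 := by simpa using h
  rcases hℓ.dvd_mul.1 h1 with h2 | h2
  · have := (Nat.prime_dvd_prime_iff_eq hℓ Nat.prime_two).1 (hℓ.dvd_of_dvd_pow h2)
    omega
  · have := (Nat.prime_dvd_prime_iff_eq hℓ Nat.prime_three).1 (hℓ.dvd_of_dvd_pow h2)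
    omega

/-- the trichotomy -/
theorem tri (p : ℕ) [Fact p.Prime] [CharP F p] {ℓ ℓ' : ℕ} [hℓ : Fact ℓ.Prime] [hℓ' : Fact ℓ'.Prime] (h5 : 5 ≤ ℓ)
    (h5' : 5 ≤ ℓ') (hp : ℓ ≠ p) (hp' : ℓ' ≠ p) {P P' : Subgroup ↥(chevF4.group F)} (hP : IsPGroup ℓ P)
    (hP' : IsPGroup ℓ' P') (hc : ∀ x ∈ P, ∀ y ∈ P', x * y = y * x) (s : ↥(chevF4.group F))
    (hs : ∀ x ∈ P, s * x * s⁻¹ ∈ P) (hs' : ∀ x ∈ P', s * x * s⁻¹ ∈ P') :
    ((∀ x ∈ P, s ^ 8 * x * (s ^ 8)⁻¹ = x) ∧ ∀ x ∈ P', s ^ 8 * x * (s ^ 8)⁻¹ = x) ∨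
    ((∀ x ∈ P, s ^ 6 * x * (s ^ 6)⁻¹ = x) ∧ ∀ x ∈ P', s ^ 6 * x * (s ^ 6)⁻¹ = x) ∨
    ((∀ x ∈ P, s ^ 6 * x * (s ^ 6)⁻¹ = x⁻¹) ∧ ∀ x ∈ P', s ^ 6 * x * (s ^ 6)⁻¹ = x⁻¹) := by
  set q := Fintype.card F with hq
  obtain ⟨m, hpr, hm⟩ := FiniteField.card F p
  have hdvd : ∀ r : ℕ, r.Prime → r ≠ p → ∀ N : ℕ, (r - 1) ∣ N → r ∣ q ^ N - 1 := by
    intro r hr hrp N hN
    have hcop : Nat.Coprime q r := by
      rw [hq, hm]
      exact Nat.Coprime.pow_left _ ((Nat.coprime_primes hpr hr).2 (Ne.symm hrp))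
    have h1 : q ^ (r - 1) ≡ 1 [MOD r] := by
      have := Nat.ModEq.pow_totient hcop
      rwa [Nat.totient_prime hr] at this
    obtain ⟨k, rfl⟩ := hN
    rw [pow_mul]
    have h2 : (q ^ (r - 1)) ^ k ≡ 1 [MOD r] := by simpa using h1.pow k
    have hq0 : 0 < q := Fintype.card_pos
    exact (Nat.modEq_iff_dvd' (Nat.one_le_pow _ _ (Nat.pow_pos hq0))).1 h2.symm
  obtain ⟨K, i1, i2, ι, σ, hK, -, -, -⟩ := exists_ext hq.symm (N := (ℓ - 1) * (ℓ' - 1))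
    (Nat.mul_pos (by omega) (by omega))
  have hd1 : ℓ ∣ Fintype.card K - 1 := by rw [hK]; exact hdvd ℓ hℓ.out hp _ (Dvd.intro _ rfl)
  have hd2 : ℓ' ∣ Fintype.card K - 1 := by rw [hK]; exact hdvd ℓ' hℓ'.out hp' _ (Dvd.intro_left _ rfl)
  obtain ⟨g0, n, hn, u, huW, hu, h1, h2⟩ := two_local DData.dF4 hF4 ι hd1 hd2 (not_dvd_W hℓ.out h5) (not_dvd_W hℓ'.out h5')
    hP hP' hc s hs hs'
  rcases orders_W DData.dF4 huW with h | h | h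
  · left
    exact ⟨comm_of_pow (hD := hF4) DData.dF4 hn hu hs h1 h, comm_of_pow (hD := hF4) DData.dF4 hn hu hs' h2 h⟩
  · right; left
    exact ⟨comm_of_pow (hD := hF4) DData.dF4 hn hu hs h1 h, comm_of_pow (hD := hF4) DData.dF4 hn hu hs' h2 h⟩
  · right; right
    have h3 : ∀ r, rv chevF4 (((u ^ 6 : Equiv.Perm (Fin chevF4.nroots))) r) = - rv chevF4 r := by
      intro r
      have h4 := rv_W DData.dF4 (good_of_mem hF4) (pow_mem huW 6) r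
      have h5 : wm DData.dF4 (u ^ 6) = -1 := h
      rw [h4, h5, Matrix.neg_mulVec, Matrix.one_mulVec]
    exact ⟨inv_of_pow (hD := hF4) DData.dF4 hn hu hs h1 h3, inv_of_pow (hD := hF4) DData.dF4 hn hu hs' h2 h3⟩

/-- elements of order prime to 6 normalising an `ℓ`-subgroup centralise it -/
theorem pow24 (p : ℕ) [Fact p.Prime] [CharP F p] {ℓ : ℕ} [hℓ : Fact ℓ.Prime] (h5 : 5 ≤ ℓ) (hp : ℓ ≠ p)
    {P : Subgroup ↥(chevF4.group F)} (hP : IsPGroup ℓ P) (s : ↥(chevF4.group F))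
    (hs : ∀ x ∈ P, s * x * s⁻¹ ∈ P) : ∀ x ∈ P, s ^ 24 * x * (s ^ 24)⁻¹ = x := by
  have hbot : IsPGroup ℓ (⊥ : Subgroup ↥(chevF4.group F)) := IsPGroup.of_bot
  have key : ∀ a b : ℕ, (∀ x ∈ P, s ^ a * x * (s ^ a)⁻¹ = x) → ∀ x ∈ P, s ^ (a * b) * x * (s ^ (a * b))⁻¹ = x := by
    intro a b h
    induction b with
    | zero => intro x _; simp
    | succ b ih =>
      intro x hx
      have e : s ^ (a * (b + 1)) * x * (s ^ (a * (b + 1)))⁻¹ = s ^ (a * b) * (s ^ a * x * (s ^ a)⁻¹) * (s ^ (a * b))⁻¹ := by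
        rw [mul_add, mul_one, pow_add]
        generalize s ^ (a * b) = y
        generalize s ^ a = z
        group
      rw [e, h x hx, ih x hx]
  rcases tri p h5 h5 hp hp hP hbot (fun x _ y hy => by rw [Subgroup.mem_bot.1 hy]; simp) s hs
    (fun x hx => by rw [Subgroup.mem_bot.1 hx]; simp) with h | h | h
  · exact key 8 3 h.1
  · exact key 6 4 h.1
  · have h12 : ∀ x ∈ P, s ^ 12 * x * (s ^ 12)⁻¹ = x := by
      intro x hx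
      have e : s ^ 12 * x * (s ^ 12)⁻¹ = s ^ 6 * (s ^ 6 * x * (s ^ 6)⁻¹) * (s ^ 6)⁻¹ := by
        rw [show (12 : ℕ) = 6 + 6 from rfl, pow_add]
        generalize s ^ 6 = z
        group
      rw [e, h.1 x hx, h.1 x⁻¹ (inv_mem hx), inv_inv]
    exact key 12 2 h12

end Cfsg.Agent.H51.F4Loc
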