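import Cfsg.Agent.H51.G2Loc

set_option autoImplicit false
set_option maxRecDepth 100000

/-!
Sections of the groups of type G2: the 3-local argument.
-/

namespace Cfsg.Agent.H51.G2Sec

open Matrix Cfsg.Lie Cfsg.Agent.Chev Cfsg.Agent.ChevGrp Cfsg.Agent.ChevF Cfsg.Agent.H51.TwoPrime Cfsg.Agent.H51.ChevFus
  Cfsg.Agent.H51.G2W Cfsg.Agent.H51.G2Loc

variable {K : Type*} [Field K] [Fintype K]

/-- the product of the two rotations -/
lemma rot_eq {u v : Equiv.Perm (Fin chevG2.nroots)} (hu : u ∈ DData.dG2.rp.wsys.W) (hv : v ∈ DData.dG2.rp.wsys.W)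
    (hu3 : u ^ 3 = 1) (hu1 : u ≠ 1) (hv3 : v ^ 3 = 1) (hv1 : v ≠ 1) : u = v ∨ u * v = 1 := by
  have hmul : wm2 DData.dG2 (u * v) = wm2 DData.dG2 u * wm2 DData.dG2 v := wm_mul DData.dG2 (good_of_mem hG2) hu
  rcases (rot DData.dG2 hu hu3 hu1).2 with h | h <;> rcases (rot DData.dG2 hv hv3 hv1).2 with h' | h'
  · left; exact wm2_inj DData.dG2 hu hv (h.trans h'.symm)
  · right
    apply wm2_inj DData.dG2 (mul_mem hu hv) (one_mem _)
    rw [hmul, h, h', wm2_one]; decide
  · right
    apply wm2_inj DData.dG2 (mul_mem hu hv) (one_mem _)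
    rw [hmul, h, h', wm2_one]; decide
  · left; exact wm2_inj DData.dG2 hu hv (h.trans h'.symm)

/-- no section with the relations `Rel` in characteristic five -/
theorem no_rel {H Q : Type*} [Group H] [Group Q] [Finite H] [IsSimpleGroup Q] (r : A8Sec.Rel Q) (φ : H →* Q)
    (hφ : Function.Surjective φ) (ψ : H →* GL chevG2.Idx K) (hψ : Function.Injective ψ)
    (hψm : ∀ h, ψ h ∈ chevG2.group K) (h5 : (5 : K) = 0) (h3 : 3 ∣ Fintype.card K - 1) : False := by
  classical
  set R := chev DData.dG2 (good_of_mem hG2) K with hR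
  haveI : Finite (GL chevG2.Idx K) := inferInstance
  have hNle : R.N ≤ chevG2.group K := by
    have : R.Grp = chevG2.group K := chev_Grp _ _
    rw [← this]; exact RGrp.N_le_Grp
  refine A8Sec.main r φ hφ
    (fun A => ∃ g0 ∈ chevG2.group K, ∀ v ∈ A, g0⁻¹ * ψ v * g0 ∈ chevG2.diagonalSubgroup K) ?_ ?_ ?_ ?_
  · rintro A B hAB ⟨g0, hg0, h⟩
    exact ⟨g0, hg0, fun v hv => h v (hAB hv)⟩
  · rintro A ⟨g0, hg0, h⟩ a ha b hb
    apply hψ
    have h1 := diag_comm hG2 (h a ha) (h b hb)
    rw [map_mul, map_mul]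
    have h2 : g0⁻¹ * (ψ a * ψ b) * g0 = g0⁻¹ * (ψ b * ψ a) * g0 := by
      calc g0⁻¹ * (ψ a * ψ b) * g0 = g0⁻¹ * ψ a * g0 * (g0⁻¹ * ψ b * g0) := by group
        _ = g0⁻¹ * ψ b * g0 * (g0⁻¹ * ψ a * g0) := h1
        _ = g0⁻¹ * (ψ b * ψ a) * g0 := by group
    exact mul_left_cancel (mul_right_cancel h2)
  · rintro A ⟨g0, hg0, h⟩ s hs x hx
    have hmem : g0⁻¹ * ψ s * g0 ∈ chevG2.group K := mul_mem (mul_mem (inv_mem hg0) (hψm s)) hg0
    obtain ⟨b, -, n, hn, y, -, -, hfus⟩ := fusion DData.dG2 hG2 hmem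
    obtain ⟨u, hu⟩ := RGrp.exists_act hn
    have key : ∀ k : ℕ, ∀ v ∈ A, s ^ k * v * (s ^ k)⁻¹ ∈ A ∧
        g0⁻¹ * ψ (s ^ k * v * (s ^ k)⁻¹) * g0 = n ^ k * (g0⁻¹ * ψ v * g0) * (n ^ k)⁻¹ := by
      intro k
      induction k with
      | zero => intro v hv; simpa using hv
      | succ k ih =>
        intro v hv
        obtain ⟨i1, i2⟩ := ih v hv
        have e1 : s ^ (k + 1) * v * (s ^ (k + 1))⁻¹ = s * (s ^ k * v * (s ^ k)⁻¹) * s⁻¹ := by
          rw [pow_succ' s k]
          generalize s ^ k = z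
          group
        have e2 : n ^ (k + 1) * (g0⁻¹ * ψ v * g0) * (n ^ (k + 1))⁻¹ = n * (n ^ k * (g0⁻¹ * ψ v * g0) * (n ^ k)⁻¹) * n⁻¹ := by
          rw [pow_succ' n k]
          generalize n ^ k = z
          group
        rw [e1, e2, ← i2]
        refine ⟨hs _ i1, ?_⟩
        set w := s ^ k * v * (s ^ k)⁻¹ with hw
        have f1 : g0⁻¹ * ψ (s * w * s⁻¹) * g0 = (g0⁻¹ * ψ s * g0) * (g0⁻¹ * ψ w * g0) * (g0⁻¹ * ψ s * g0)⁻¹ := by
          rw [map_mul, map_mul, map_inv]; group
        rw [f1]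
        refine ((hfus _ (h w i1) ?_).1).symm
        rw [← f1]; exact h _ (hs _ i1)
    have h1 := key 6 x hx
    have h2 := act_pow DData.dG2 (hD := hG2) hu 6
    rw [six DData.dG2 hu.mem] at h2
    have h4 : n ^ 6 ∈ chevG2.diagonalSubgroup K := RGrp.mem_H_of_act_one (R := R) (pow_mem hn 6) h2
    have h6 := h1.2
    rw [diag_comm hG2 h4 (h x hx), mul_inv_cancel_right] at h6
    have h7 : ψ (s ^ 6 * x * (s ^ 6)⁻¹) = ψ x := mul_left_cancel (mul_right_cancel h6)
    have h8 := hψ h7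
    rw [mul_inv_eq_iff_eq_mul] at h8
    exact h8
  · intro P hP
    -- conjugate into `N`
    haveI : Fact (Nat.Prime 3) := ⟨Nat.prime_three⟩
    let ψ' : H →* ↥(chevG2.group K) := ψ.codRestrict _ hψm
    obtain ⟨g0, hg0⟩ := conj_into (T := R.N.subgroupOf (chevG2.group K)) (index_N h3) (hP.map ψ')
    have hN : ∀ v ∈ P, (g0 : GL chevG2.Idx K)⁻¹ * ψ v * g0 ∈ R.N := fun v hv => hg0 _ ⟨v, hv, rfl⟩
    let γ : H →* GL chevG2.Idx K := (MulAut.conj (g0 : GL chevG2.Idx K)⁻¹).toMonoidHom.comp ψ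
    have hγ : ∀ v, γ v = (g0 : GL chevG2.Idx K)⁻¹ * ψ v * g0 := by
      intro v
      simp [γ, MulAut.conj_apply]
    have hγi : Function.Injective γ := by
      intro a b hab
      rw [hγ, hγ] at hab
      exact hψ (mul_left_cancel (mul_right_cancel hab))
    set A : Subgroup H := P ⊓ (chevG2.diagonalSubgroup K).comap γ with hA
    have memA : ∀ v, v ∈ A ↔ v ∈ P ∧ γ v ∈ chevG2.diagonalSubgroup K := fun v => Iff.rfl
    have hγN : ∀ v ∈ P, γ v ∈ R.N := fun v hv => by rw [hγ]; exact hN v hv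
    -- the rotation attached to an element outside `A`
    have hrot : ∀ v ∈ P, v ∉ A → ∃ u ∈ DData.dG2.rp.wsys.W, R.Act (γ v) u ∧ u ^ 3 = 1 ∧ u ≠ 1 := by
      intro v hv hvA
      obtain ⟨u, hu⟩ := RGrp.exists_act (hγN v hv)
      refine ⟨u, hu.mem, hu, ?_, ?_⟩
      · obtain ⟨k, hk⟩ := hP ⟨v, hv⟩
        have hk' : v ^ 3 ^ k = 1 := by simpa using congrArg Subtype.val hk
        have h1 := act_pow DData.dG2 (hD := hG2) hu (3 ^ k)
        rw [← map_pow, hk', map_one] at h1
        have h2 : u ^ 3 ^ k = 1 := h1.unique RGrp.act_one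
        have h4 : orderOf u ∣ 3 ^ k := orderOf_dvd_of_pow_eq_one h2
        have h6 : orderOf u ∣ 6 := orderOf_dvd_of_pow_eq_one (six DData.dG2 hu.mem)
        obtain ⟨m, -, hm⟩ := (Nat.dvd_prime_pow Nat.prime_three).1 h4
        rw [hm] at h6
        have h7 : 3 ^ m ∣ 3 := by
          have : m ≤ 1 := by
            by_contra hcon
            have h8 : 3 ^ 2 ∣ 3 ^ m := pow_dvd_pow 3 (by omega)
            have := h8.trans h6
            norm_num at this
          interval_cases m <;> norm_num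
        exact orderOf_dvd_iff_pow_eq_one.1 (hm ▸ h7)
      · rintro rfl
        exact hvA ((memA v).2 ⟨hv, RGrp.mem_H_of_act_one (R := R) (hγN v hv) hu⟩)
    refine ⟨A, inf_le_left, ⟨g0, g0.2, fun v hv => by rw [← hγ]; exact ((memA v).1 hv).2⟩, ?_, ?_, ?_⟩
    · intro p hp a ha
      refine (memA _).2 ⟨P.mul_mem (P.mul_mem hp ((memA a).1 ha).1) (P.inv_mem hp), ?_⟩
      rw [map_mul, map_mul, map_inv]
      exact RGrp.N_conj_H (R := R) (hγN p hp) ((memA a).1 ha).2
    · intro b hb hbA p hp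
      by_cases hpA : p ∈ A
      · exact Or.inl hpA
      · obtain ⟨u, huW, hu, hu3, hu1⟩ := hrot b hb hbA
        obtain ⟨v, hvW, hv, hv3, hv1⟩ := hrot p hp hpA
        rcases rot_eq huW hvW hu3 hu1 hv3 hv1 with h | h
        · right; left
          refine (memA _).2 ⟨P.mul_mem (P.inv_mem hb) hp, ?_⟩
          rw [map_mul, map_inv]
          have h1 := hu.inv.mul hv
          rw [← h, inv_mul_cancel] at h1
          exact RGrp.mem_H_of_act_one (R := R) (mul_mem (inv_mem (hγN b hb)) (hγN p hp)) h1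
        · right; right
          refine (memA _).2 ⟨P.mul_mem hb hp, ?_⟩
          rw [map_mul]
          have h1 := hu.mul hv
          rw [h] at h1
          exact RGrp.mem_H_of_act_one (R := R) (mul_mem (hγN b hb) (hγN p hp)) h1
    · intro a ha g hbP hbA hcomm
      set b := g * a * g⁻¹ with hb
      obtain ⟨u, huW, hu, hu3, hu1⟩ := hrot b hbP hbA
      have haT : γ a ∈ chevG2.diagonalSubgroup K := ((memA a).1 ha).2
      have hfix : ∀ s, ev (γ a) (u s) = ev (γ a) s := by
        intro s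
        have h1 := N_conj_ev DData.dG2 hG2 (hγN b hbP) hu haT s
        have h2 : γ b * γ a * (γ b)⁻¹ = γ a := by
          rw [← map_mul, ← hcomm, map_mul, mul_inv_cancel_right]
        rwa [h2] at h1
      have hnofix : ∀ s, u s ≠ s := by
        intro s hs
        have h1 := rv_W DData.dG2 (good_of_mem hG2) huW s
        rw [hs] at h1
        -- M v = v with M^2+M+1=0
        have h2 : ∀ w : Fin 2 → ℤ, (!![-2, 3; -1, 1] : Matrix (Fin 2) (Fin 2) ℤ) *ᵥ w = w → w = 0 := by
          intro w hw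
          have e0 := congrFun hw 0
          have e1 := congrFun hw 1
          simp [Matrix.mulVec, dotProduct, Fin.sum_univ_two] at e0 e1
          funext i
          fin_cases i
          · change w 0 = 0; omega
          · change w 1 = 0; omega
        have h3' : ∀ w : Fin 2 → ℤ, (!![1, -3; 1, -2] : Matrix (Fin 2) (Fin 2) ℤ) *ᵥ w = w → w = 0 := by
          intro w hw
          have e0 := congrFun hw 0
          have e1 := congrFun hw 1
          simp [Matrix.mulVec, dotProduct, Fin.sum_univ_two] at e0 e1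
          funext i
          fin_cases i
          · change w 0 = 0; omega
          · change w 1 = 0; omega
        have h4 : (rv chevG2 s : Fin 2 → ℤ) = 0 := by
          rcases (rot DData.dG2 huW hu3 hu1).2 with h | h
          · apply h2
            have : wm2 DData.dG2 u *ᵥ (rv chevG2 s : Fin 2 → ℤ) = rv chevG2 s := h1.symm
            rwa [h] at this
          · apply h3'
            have : wm2 DData.dG2 u *ᵥ (rv chevG2 s : Fin 2 → ℤ) = rv chevG2 s := h1.symm
            rwa [h] at this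
        have h5' : ∀ s : Fin 12, ¬ (vec chevG2 s 0 = 0 ∧ vec chevG2 s 1 = 0) := by
          intro s
          rw [(vec_vals s).1, (vec_vals s).2]
          revert s; decide
        exact h5' s ⟨congrFun h4 (0 : Fin 2), congrFun h4 (1 : Fin 2)⟩
      have hconj : Matrix.trace ((γ b : GL chevG2.Idx K) : Matrix chevG2.Idx chevG2.Idx K) =
          Matrix.trace ((γ a : GL chevG2.Idx K) : Matrix chevG2.Idx chevG2.Idx K) := by
        have h1 : γ b = γ g * γ a * (γ g)⁻¹ := by rw [hb, map_mul, map_mul, map_inv]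
        rw [h1, Units.val_mul, Units.val_mul, Matrix.trace_mul_comm, ← mul_assoc, ← Units.val_mul, inv_mul_cancel,
          Units.val_one, one_mul]
      have htb : Matrix.trace ((γ b : GL chevG2.Idx K) : Matrix chevG2.Idx chevG2.Idx K) = -1 := by
        rw [trace_N DData.dG2 hG2 (hγN b hbP) hu hnofix]
        have h1 : ∑ k : Fin chevG2.rank, ((wc DData.dG2 u k k : ℤ) : K) =
            ((wc2 DData.dG2 u 0 0 : ℤ) : K) + ((wc2 DData.dG2 u 1 1 : ℤ) : K) :=
          Fin.sum_univ_two (fun i : Fin 2 => ((wc2 DData.dG2 u i i : ℤ) : K))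
        rw [h1, ← Int.cast_add, (rot DData.dG2 huW hu3 hu1).1]
        simp
      rcases trace_rot haT huW hu3 hu1 hfix with h | h
      · have ha1 : a = 1 := hγi (by rw [h, map_one])
        apply hbA
        rw [hb, ha1, mul_one, mul_inv_cancel]
        exact one_mem _
      · rw [hconj, h] at htb
        have : (1 : K) = 0 := by
          have h7 : (5 : K) + 1 = 0 := by rw [htb]; ring
          rw [h5, zero_add] at h7
          exact h7
        exact one_ne_zero this

end Cfsg.Agent.H51.G2Sec
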