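import Cfsg.Agent.Fus.SmallP
import Cfsg.Agent.H4.Final
import Cfsg.Agent.Solv.Core
import Cfsg.Agent.Transfer.Fusion
import Mathlib.GroupTheory.Transfer

/-!
# Simple groups with a Sylow 2-subgroup `R = C(z)` and `Φ(R) = ⟨z⟩`
-/

set_option autoImplicit false

namespace Cfsg.Agent.H51.SmallFrat

open scoped Pointwise

variable {L : Type*} [Group L]

/-- The basic data: `R = C(z)`, `[R, R] ≤ ⟨z⟩`, squares in `⟨z⟩`, `N(R) = R`. -/
structure Hyp (R : Sylow 2 L) (z : L) : Prop where
  z1 : z ≠ 1
  zz : z * z = 1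
  mem : ∀ x : L, x ∈ (R : Subgroup L) ↔ x * z = z * x
  comm : ∀ x y, x * z = z * x → y * z = z * y → x * y = y * x ∨ x * y = z * (y * x)
  sq : ∀ x, x * z = z * x → x * x = 1 ∨ x * x = z
  norm : ∀ g : L, (∀ x, x * z = z * x → g * x * g⁻¹ ∈ (R : Subgroup L)) → g ∈ (R : Subgroup L)

variable {R : Sylow 2 L} {z : L}

theorem conj_comm_iff {g x z : L} : x * (g * z * g⁻¹) = (g * z * g⁻¹) * x ↔
    (g⁻¹ * x * g) * z = z * (g⁻¹ * x * g) := by
  constructor
  · intro h
    calc (g⁻¹ * x * g) * z = g⁻¹ * (x * (g * z * g⁻¹)) * g := by group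
      _ = g⁻¹ * ((g * z * g⁻¹) * x) * g := by rw [h]
      _ = z * (g⁻¹ * x * g) := by group
  · intro h
    calc x * (g * z * g⁻¹) = g * ((g⁻¹ * x * g) * z) * g⁻¹ := by group
      _ = g * (z * (g⁻¹ * x * g)) * g⁻¹ := by rw [h]
      _ = (g * z * g⁻¹) * x := by group

theorem Hyp.comm' (h : Hyp R z) {v : L} (hv : IsConj z v) {x y : L} (hx : x * v = v * x)
    (hy : y * v = v * y) : x * y = y * x ∨ x * y = v * (y * x) := by
  obtain ⟨g, rfl⟩ := isConj_iff.mp hv
  rw [conj_comm_iff] at hx hy
  rcases h.comm _ _ hx hy with h1 | h1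
  · left
    calc x * y = g * ((g⁻¹ * x * g) * (g⁻¹ * y * g)) * g⁻¹ := by group
      _ = g * ((g⁻¹ * y * g) * (g⁻¹ * x * g)) * g⁻¹ := by rw [h1]
      _ = y * x := by group
  · right
    calc x * y = g * ((g⁻¹ * x * g) * (g⁻¹ * y * g)) * g⁻¹ := by group
      _ = g * (z * ((g⁻¹ * y * g) * (g⁻¹ * x * g))) * g⁻¹ := by rw [h1]
      _ = g * z * g⁻¹ * (y * x) := by group

theorem Hyp.sq' (h : Hyp R z) {v : L} (hv : IsConj z v) {x : L} (hx : x * v = v * x) :
    x * x = 1 ∨ x * x = v := by
  obtain ⟨g, rfl⟩ := isConj_iff.mp hv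
  rw [conj_comm_iff] at hx
  rcases h.sq _ hx with h1 | h1
  · left
    calc x * x = g * ((g⁻¹ * x * g) * (g⁻¹ * x * g)) * g⁻¹ := by group
      _ = 1 := by rw [h1]; group
  · right
    calc x * x = g * ((g⁻¹ * x * g) * (g⁻¹ * x * g)) * g⁻¹ := by group
      _ = g * z * g⁻¹ := by rw [h1]

theorem Hyp.vv (h : Hyp R z) {v : L} (hv : IsConj z v) : v * v = 1 := by
  obtain ⟨g, rfl⟩ := isConj_iff.mp hv
  calc g * z * g⁻¹ * (g * z * g⁻¹) = g * (z * z) * g⁻¹ := by group
    _ = 1 := by rw [h.zz]; group

theorem Hyp.v1 (h : Hyp R z) {v : L} (hv : IsConj z v) : v ≠ 1 := by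
  obtain ⟨g, rfl⟩ := isConj_iff.mp hv
  intro h1
  apply h.z1
  calc z = g⁻¹ * (g * z * g⁻¹) * g := by group
    _ = 1 := by rw [h1]; group

/-- L1 -/
theorem Hyp.eq_of_le (h : Hyp R z) {v w : L} (hv : IsConj z v) (hw : IsConj z w)
    (hvw : ∀ x, x * v = v * x → x * w = w * x) : v = w := by
  obtain ⟨g, rfl⟩ := isConj_iff.mp hv
  obtain ⟨k, rfl⟩ := isConj_iff.mp hw
  have h1 : k⁻¹ * g ∈ (R : Subgroup L) := by
    apply h.norm
    intro x hx
    have h2 := hvw (g * x * g⁻¹) (by
      rw [conj_comm_iff]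
      have : g⁻¹ * (g * x * g⁻¹) * g = x := by group
      rw [this]; exact hx)
    rw [conj_comm_iff] at h2
    rw [h.mem]
    have : k⁻¹ * g * x * (k⁻¹ * g)⁻¹ = k⁻¹ * (g * x * g⁻¹) * k := by group
    rw [this]; exact h2
  rw [h.mem] at h1
  calc g * z * g⁻¹ = k * ((k⁻¹ * g) * z) * g⁻¹ := by group
    _ = k * (z * (k⁻¹ * g)) * g⁻¹ := by rw [h1]
    _ = k * z * k⁻¹ := by group

/-- L2 -/
theorem Hyp.exists_s (h : Hyp R z) {v w : L} (hv : IsConj z v) (hw : IsConj z w) (hne : v ≠ w)
    (hvw : v * w = w * v) : ∃ s, s * v = v * s ∧ s * w = v * (w * s) := by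
  by_contra hcon
  push Not at hcon
  apply hne
  apply h.eq_of_le hv hw
  intro x hx
  rcases h.comm' hv hx hvw.symm with h1 | h1
  · exact h1
  · exact absurd h1 (hcon x hx)

/-- L3 -/
theorem Hyp.comm_of_two (h : Hyp R z) {v w : L} (hv : IsConj z v) (hw : IsConj z w) (hne : v ≠ w)
    {a b : L} (hav : a * v = v * a) (haw : a * w = w * a) (hbv : b * v = v * b) (hbw : b * w = w * b) :
    a * b = b * a := by
  rcases h.comm' hv hav hbv with h1 | h1
  · exact h1
  rcases h.comm' hw haw hbw with h2 | h2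
  · exact h2
  rw [h1] at h2
  exact absurd (mul_right_cancel h2) hne

theorem Hyp.sq_of_two (h : Hyp R z) {v w : L} (hv : IsConj z v) (hw : IsConj z w) (hne : v ≠ w)
    {a : L} (hav : a * v = v * a) (haw : a * w = w * a) : a * a = 1 := by
  rcases h.sq' hv hav with h1 | h1
  · exact h1
  rcases h.sq' hw haw with h2 | h2
  · exact h2
  exact absurd (h1.symm.trans h2) hne

/-- L5 -/
theorem Hyp.central_or (h : Hyp R z) {v w : L} (hv : IsConj z v) (hw : IsConj z w) (hne : v ≠ w)
    {s : L} (hsv : s * v = v * s) (hsw : s * w = v * (w * s)) {a : L}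
    (hav : a * v = v * a) (haw : a * w = w * a) :
    (∀ x, x * v = v * x → x * a = a * x) ∨ s * a = v * (a * s) := by
  rcases h.comm' hv hsv hav with h1 | h1
  · left
    intro x hx
    have hvv := h.vv hv
    by_cases hxw : x * w = w * x
    · exact h.comm_of_two hv hw hne hx hxw hav haw
    · have hvw : w * v = v * w := by
        have := h.comm' hv hsv hsv
        -- `w` commutes with `v` since `a`-free argument: use `s w = v w s`
        have e1 : s * w * s⁻¹ = v * w := by rw [hsw]; group
        have e2 : (v * w) * (v * w) = 1 := by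
          rw [← e1]
          calc s * w * s⁻¹ * (s * w * s⁻¹) = s * (w * w) * s⁻¹ := by group
            _ = 1 := by rw [h.vv hw]; group
        have e3 : v * w = (v * w)⁻¹ := eq_inv_of_mul_eq_one_left e2
        rw [mul_inv_rev] at e3
        rw [← eq_inv_of_mul_eq_one_left hvv, ← eq_inv_of_mul_eq_one_left (h.vv hw)] at e3
        exact e3.symm
      have h2 : x * w = v * (w * x) := by
        rcases h.comm' hv hx hvw with h3 | h3
        · exact absurd h3 hxw
        · exact h3
      have h4 : (s * x) * w = w * (s * x) := by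
        calc (s * x) * w = s * (x * w) := by group
          _ = s * (v * (w * x)) := by rw [h2]
          _ = (s * v) * w * x := by group
          _ = v * (s * w) * x := by rw [hsv]; group
          _ = v * (v * (w * s)) * x := by rw [hsw]
          _ = (v * v) * w * (s * x) := by group
          _ = w * (s * x) := by rw [hvv]; group
      have h5 : (s * x) * v = v * (s * x) := by
        calc (s * x) * v = s * (x * v) := by group
          _ = (s * v) * x := by rw [hx]; group
          _ = v * (s * x) := by rw [hsv]; group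
      have h6 := h.comm_of_two hv hw hne h5 h4 hav haw
      -- s x a = a s x = s a x
      have h7 : s * (x * a) = s * (a * x) := by
        calc s * (x * a) = (s * x) * a := by group
          _ = a * (s * x) := h6
          _ = (a * s) * x := by group
          _ = (s * a) * x := by rw [h1]
          _ = s * (a * x) := by group
      exact mul_left_cancel h7
  · right; exact h1

/-- Claim A -/
theorem Hyp.claimA (h : Hyp R z) {t t' : L} (ht : IsConj z t) (ht' : IsConj z t') (htz : t * z = z * t)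
    (htz' : t' * z = z * t') (hne : t ≠ z) (hne' : t' ≠ z) (htt : t * t' = t' * t) :
    t' = t ∨ t' = z * t := by
  by_cases he : t' = t
  · exact Or.inl he
  right
  have hzz : IsConj z z := IsConj.refl z
  obtain ⟨s', hs1, hs2⟩ := h.exists_s ht ht' (Ne.symm he) htt
  have hT : IsConj z (t * t') := by
    have e1 : s' * t' * s'⁻¹ = t * t' := by rw [hs2]; group
    exact ht'.trans (isConj_iff.mpr ⟨s', e1⟩)
  obtain ⟨s, h1, h2⟩ := h.exists_s hzz ht (Ne.symm hne) htz.symm
  have hcz : (t * t') * z = z * (t * t') := by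
    rw [mul_assoc, htz', ← mul_assoc, htz, mul_assoc]
  have hct : (t * t') * t = t * (t * t') := by
    rw [mul_assoc, ← htt]
  -- t' is not central in C(z)
  have h3 : s * t' = z * (t' * s) := by
    rcases h.central_or hzz ht (Ne.symm hne) h1 h2 htz' htt.symm with h4 | h4
    · exact absurd (h.eq_of_le hzz ht' h4) (Ne.symm hne')
    · exact h4
  have h5 : s * (t * t') = (t * t') * s := by
    calc s * (t * t') = (s * t) * t' := by group
      _ = z * t * (s * t') := by rw [h2]; group
      _ = z * (t * z) * (t' * s) := by rw [h3]; group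
      _ = (z * z) * (t * t' * s) := by rw [htz]; group
      _ = (t * t') * s := by rw [h.zz]; group
  have h6 : t * t' = z := by
    rcases h.central_or hzz ht (Ne.symm hne) h1 h2 hcz hct with h4 | h4
    · exact (h.eq_of_le hzz hT h4).symm
    · rw [h5] at h4
      have : z = 1 := by
        have h7 : 1 * (t * t' * s) = z * (t * t' * s) := by rw [one_mul]; exact h4
        exact (mul_right_cancel h7).symm
      exact absurd this h.z1
  calc t' = (t * t) * t' := by rw [h.vv ht, one_mul]
    _ = t * (t * t') := by group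
    _ = t * z := by rw [h6]
    _ = z * t := htz

theorem mem_inv_smul' {w x : L} : x ∈ ((w⁻¹ • R : Sylow 2 L) : Subgroup L) ↔ w * x * w⁻¹ ∈ (R : Subgroup L) := by
  rw [Sylow.coe_subgroup_smul, Subgroup.mem_pointwise_smul_iff_inv_smul_mem]
  simp [MulAut.conj_apply, ← map_inv]

/-- Claim B -/
theorem Hyp.claimB [Finite L] (h : Hyp R z) {u w : L} (huc : ∀ x, x * z = z * x → x * u = u * x)
    (hy : (w⁻¹ * u * w) * z = z * (w⁻¹ * u * w)) :
    w⁻¹ * u * w = u ∨ ∃ v, IsConj z v ∧ v * z = z * v ∧ v ≠ z ∧ w⁻¹ * u * w = u * z * v := by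
  obtain ⟨y, hyd⟩ : ∃ y, y = w⁻¹ * u * w := ⟨_, rfl⟩
  rw [← hyd] at hy ⊢
  have hK : ((w⁻¹ • R : Sylow 2 L) : Subgroup L) ≤ Subgroup.centralizer {y} := by
    intro x hx
    rw [mem_inv_smul', h.mem] at hx
    rw [Subgroup.mem_centralizer_singleton_iff]
    have h1 := huc _ hx
    rw [hyd]
    calc x * (w⁻¹ * u * w) = w⁻¹ * ((w * x * w⁻¹) * u) * w := by group
      _ = w⁻¹ * (u * (w * x * w⁻¹)) * w := by rw [h1]
      _ = (w⁻¹ * u * w) * x := by group
  by_cases hyc : ∀ x, x * z = z * x → x * y = y * x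
  · left
    have hR : (R : Subgroup L) ≤ Subgroup.centralizer {y} := by
      intro x hx
      rw [Subgroup.mem_centralizer_singleton_iff]
      exact hyc x ((h.mem x).mp hx)
    obtain ⟨k, hk, hkR⟩ := Cfsg.Agent.Transfer.exists_smul_eq_of_le _ _ _ hK hR
    rw [← mul_smul, Sylow.smul_eq_iff_mem_normalizer] at hkR
    have h2 : k * w⁻¹ ∈ (R : Subgroup L) := by
      apply h.norm
      intro x hx
      exact (Subgroup.mem_normalizer_iff.mp hkR x).mp ((h.mem x).mpr hx)
    rw [h.mem] at h2
    have h3 := huc _ h2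
    rw [Subgroup.mem_centralizer_singleton_iff] at hk
    have h4 : k * y = u * k := by
      rw [hyd]
      calc k * (w⁻¹ * u * w) = ((k * w⁻¹) * u) * w := by group
        _ = u * (k * w⁻¹) * w := by rw [h3]
        _ = u * k := by group
    rw [hk] at h4
    exact mul_right_cancel h4
  · right
    set K := Subgroup.centralizer ({y} : Set L) with hKd
    have hD : IsPGroup 2 ((R : Subgroup L) ⊓ K : Subgroup L) := R.2.to_le inf_le_left
    obtain ⟨s, hs, hsD⟩ := Cfsg.Agent.Transfer.exists_conj_le_sylow_of_le ((w⁻¹ • R : Sylow 2 L).subtype hK) hD inf_le_right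
    have hDs : ∀ d, d * z = z * d → d * y = y * d → ((w * s) * d * (w * s)⁻¹) * z = z * ((w * s) * d * (w * s)⁻¹) := by
      intro d hd1 hd2
      have h1 : s * d * s⁻¹ ∈ MulAut.conj s • ((R : Subgroup L) ⊓ K : Subgroup L) := by
        refine ⟨d, ⟨(h.mem d).mpr hd1, ?_⟩, rfl⟩
        rw [hKd]
        exact Subgroup.mem_centralizer_singleton_iff.mpr hd2
      have h2 := hsD h1
      obtain ⟨e, he, hes⟩ := h2
      have h3 : s * d * s⁻¹ ∈ ((w⁻¹ • R : Sylow 2 L) : Subgroup L) := by
        rw [← hes]; exact he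
      rw [mem_inv_smul', h.mem] at h3
      have : (w * s) * d * (w * s)⁻¹ = w * (s * d * s⁻¹) * w⁻¹ := by group
      rw [this]; exact h3
    have hsy : s * y = y * s := by
      rw [hKd] at hs; exact Subgroup.mem_centralizer_singleton_iff.mp hs
    obtain ⟨k, hk⟩ : ∃ k, k = w * s := ⟨_, rfl⟩
    rw [← hk] at hDs
    have hyk : k⁻¹ * u * k = y := by
      calc k⁻¹ * u * k = s⁻¹ * (w⁻¹ * u * w) * s := by rw [hk]; group
        _ = s⁻¹ * (y * s) := by rw [← hyd]; group
        _ = y := by rw [← hsy]; group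
    obtain ⟨v, hv⟩ : ∃ v, v = k⁻¹ * z * k := ⟨_, rfl⟩
    have hcv : IsConj z v := isConj_iff.mpr ⟨k⁻¹, by rw [hv]; group⟩
    have hzz : IsConj z z := IsConj.refl z
    have hDv : ∀ d, d * z = z * d → d * y = y * d → d * v = v * d := by
      intro d h1 h2
      have h3 := hDs d h1 h2
      rw [hv]
      calc d * (k⁻¹ * z * k) = k⁻¹ * ((k * d * k⁻¹) * z) * k := by group
        _ = k⁻¹ * (z * (k * d * k⁻¹)) * k := by rw [h3]
        _ = (k⁻¹ * z * k) * d := by group
    have hzv : z * v = v * z := hDv z rfl (hy.symm)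
    have hvz : v ≠ z := by
      intro he
      apply hyc
      have h1 : k * z = z * k := by
        rw [he] at hv
        calc k * z = k * (k⁻¹ * z * k) := by rw [← hv]
          _ = z * k := by group
      have h2 := huc _ h1
      have h3 : y = u := by
        rw [← hyk, mul_assoc, ← h2]; group
      rw [h3]; exact huc
    obtain ⟨s₁, h11, h12⟩ := h.exists_s hzz hcv (Ne.symm hvz) hzv
    obtain ⟨s₂, h21, h22⟩ := h.exists_s hcv hzz hvz hzv.symm
    -- s₁ v = z v s₁, s₂ z = v z s₂
    have huz : u * z = z * u := (huc z rfl).symm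
    have huv : u * v = v * u := (huc v hzv.symm).symm
    have h2u : s₂ * u = v * (u * s₂) := by
      rcases h.central_or hcv hzz hvz h21 h22 huv huz with h3 | h3
      · exfalso
        -- C(v) ≤ C(u), C(z) ≤ C(u)
        have hR : (R : Subgroup L) ≤ Subgroup.centralizer {u} := by
          intro x hx
          rw [Subgroup.mem_centralizer_singleton_iff]
          exact huc x ((h.mem x).mp hx)
        have hR' : ((k⁻¹ • R : Sylow 2 L) : Subgroup L) ≤ Subgroup.centralizer {u} := by
          intro x hx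
          rw [mem_inv_smul', h.mem] at hx
          rw [Subgroup.mem_centralizer_singleton_iff]
          apply h3
          rw [hv]
          calc x * (k⁻¹ * z * k) = k⁻¹ * ((k * x * k⁻¹) * z) * k := by group
            _ = k⁻¹ * (z * (k * x * k⁻¹)) * k := by rw [hx]
            _ = (k⁻¹ * z * k) * x := by group
        obtain ⟨c, hc, hcR⟩ := Cfsg.Agent.Transfer.exists_smul_eq_of_le _ _ _ hR' hR
        rw [← mul_smul, Sylow.smul_eq_iff_mem_normalizer] at hcR
        have h2 : c * k⁻¹ ∈ (R : Subgroup L) := by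
          apply h.norm
          intro x hx
          exact (Subgroup.mem_normalizer_iff.mp hcR x).mp ((h.mem x).mpr hx)
        rw [h.mem] at h2
        have h4 := huc _ h2
        rw [Subgroup.mem_centralizer_singleton_iff] at hc
        have h5 : c * y = u * c := by
          rw [← hyk]
          calc c * (k⁻¹ * u * k) = ((c * k⁻¹) * u) * k := by group
            _ = u * (c * k⁻¹) * k := by rw [h4]
            _ = u * c := by group
        rw [← hc] at h5
        have h6 := mul_left_cancel h5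
        exact hyc (by rw [h6]; exact huc)
      · exact h3
    -- h := s₁ s₂ s₁ maps z to v
    have hvv := h.vv hcv
    have hzz' := h.zz
    have e1 : s₂ * (u * z) = (u * z) * s₂ := by
      calc s₂ * (u * z) = (s₂ * u) * z := by group
        _ = v * u * (s₂ * z) := by rw [h2u]; group
        _ = v * u * (v * (z * s₂)) := by rw [h22]
        _ = v * (u * v) * (z * s₂) := by group
        _ = (v * v) * (u * z * s₂) := by rw [huv]; group
        _ = (u * z) * s₂ := by rw [hvv]; group
    have e2 : s₁ * (u * z) = (u * z) * s₁ := by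
      have h3 := huc _ h11
      calc s₁ * (u * z) = (s₁ * u) * z := by group
        _ = u * (s₁ * z) := by rw [h3]; group
        _ = (u * z) * s₁ := by rw [h11]; group
    have e3 : (s₁ * s₂ * s₁) * z = v * (s₁ * s₂ * s₁) := by
      calc (s₁ * s₂ * s₁) * z = s₁ * s₂ * (s₁ * z) := by group
        _ = s₁ * (s₂ * z) * s₁ := by rw [h11]; group
        _ = (s₁ * v) * (z * s₂) * s₁ := by rw [h22]; group
        _ = z * (v * s₁) * (z * s₂) * s₁ := by rw [h12]
        _ = (z * v) * (s₁ * z) * s₂ * s₁ := by group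
        _ = (z * v) * z * (s₁ * s₂ * s₁) := by rw [h11]; group
        _ = v * (z * z) * (s₁ * s₂ * s₁) := by rw [hzv]; group
        _ = v * (s₁ * s₂ * s₁) := by rw [hzz']; group
    obtain ⟨m, hm⟩ : ∃ m, m = s₁ * s₂ * s₁ := ⟨_, rfl⟩
    rw [← hm] at e3
    have e4 : m * (u * z) = (u * z) * m := by
      rw [hm]
      calc (s₁ * s₂ * s₁) * (u * z) = s₁ * s₂ * (s₁ * (u * z)) := by group
        _ = s₁ * (s₂ * (u * z)) * s₁ := by rw [e2]; group
        _ = (s₁ * (u * z)) * s₂ * s₁ := by rw [e1]; group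
        _ = (u * z) * (s₁ * s₂ * s₁) := by rw [e2]; group
    -- k m commutes with z
    have e5 : (k * m) * z = z * (k * m) := by
      calc (k * m) * z = k * (m * z) := by group
        _ = k * (v * m) := by rw [e3]
        _ = k * (k⁻¹ * z * k) * m := by rw [hv]; group
        _ = z * (k * m) := by group
    have e6 := huc _ e5
    -- m u = (u z v) m
    have e7 : m * u = (u * z * v) * m := by
      calc m * u = m * (u * (z * z)) := by rw [hzz', mul_one]
        _ = (m * (u * z)) * z := by group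
        _ = (u * z) * (m * z) := by rw [e4]; group
        _ = (u * z * v) * m := by rw [e3]; group
    refine ⟨v, hcv, hzv.symm, hvz, ?_⟩
    have e8 : y * m = m * u := by
      rw [← hyk]
      calc k⁻¹ * u * k * m = k⁻¹ * (u * (k * m)) := by group
        _ = k⁻¹ * ((k * m) * u) := by rw [e6]
        _ = m * u := by group
    rw [e7] at e8
    exact mul_right_cancel e8

open Function MulAction Subgroup in
/-- transfer of an involution `u` all of whose conjugates in `H` have the same value under `ϕ` -/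
theorem transfer_eq_pow_inv {H : Subgroup L} {A : Type*} [CommGroup A] (ϕ : ↥H →* A) [H.FiniteIndex]
    (u : L) (hu : u ∈ H) (huu : u ^ 2 = 1)
    (key : ∀ g : L, ∀ h : g⁻¹ * u * g ∈ H, ϕ ⟨g⁻¹ * u * g, h⟩ = ϕ ⟨u, hu⟩) :
    MonoidHom.transfer ϕ u = ϕ ⟨u, hu⟩ ^ H.index := by
  classical
  letI := H.fintypeQuotientOfFiniteIndex
  rw [MonoidHom.transfer_eq_prod_quotient_orbitRel_zpowers_quot]
  have h1 : ∀ q : Quotient (orbitRel (Subgroup.zpowers u) (L ⧸ H)),
      ϕ ⟨q.out.out⁻¹ * u ^ Function.minimalPeriod (u • ·) q.out * q.out.out,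
        QuotientGroup.out_conj_pow_minimalPeriod_mem H u q.out⟩ =
        ϕ ⟨u, hu⟩ ^ Function.minimalPeriod (u • ·) q.out := by
    intro q
    obtain ⟨k, hk⟩ : ∃ k, k = Function.minimalPeriod (u • ·) q.out := ⟨_, rfl⟩
    have hmem := QuotientGroup.out_conj_pow_minimalPeriod_mem H u q.out
    simp only [← hk] at hmem ⊢
    have huu' : (⟨u, hu⟩ : H) ^ 2 = 1 := Subtype.ext huu
    rcases Nat.even_or_odd' k with ⟨m, hm | hm⟩
    · have e1 : u ^ k = 1 := by rw [hm, pow_mul, huu, one_pow]
      have e2 : (⟨u, hu⟩ : H) ^ k = 1 := by rw [hm, pow_mul, huu', one_pow]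
      rw [← map_pow, e2, map_one]
      have e3 : (⟨q.out.out⁻¹ * u ^ k * q.out.out, hmem⟩ : H) = 1 := by
        apply Subtype.ext
        change q.out.out⁻¹ * u ^ k * q.out.out = 1
        rw [e1]; group
      rw [e3, map_one]
    · have e1 : u ^ k = u := by rw [hm, pow_succ, pow_mul, huu, one_pow, one_mul]
      have e2 : (⟨u, hu⟩ : H) ^ k = ⟨u, hu⟩ := by rw [hm, pow_succ, pow_mul, huu', one_pow, one_mul]
      rw [← map_pow, e2]
      have hmem' : q.out.out⁻¹ * u * q.out.out ∈ H := by rw [e1] at hmem; exact hmem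
      rw [← key _ hmem']
      congr 1
      apply Subtype.ext
      change q.out.out⁻¹ * u ^ k * q.out.out = q.out.out⁻¹ * u * q.out.out
      rw [e1]
  rw [Finset.prod_congr rfl (fun q _ => h1 q), Finset.prod_pow_eq_pow_sum]
  rw [index_eq_sum_minimalPeriod H u]

universe u₀

theorem exists_t {L : Type u₀} [Group L] [Finite L] [IsSimpleGroup L] (hL : ¬ IsMulCommutative L)
    {R : Sylow 2 L} {z : L} (h : Hyp R z) : ∃ t, IsConj z t ∧ t * z = z * t ∧ t ≠ z := by
  by_contra hcon
  push Not at hcon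
  have hz2 : orderOf z = 2 := by
    rw [orderOf_eq_prime_iff]
    exact ⟨by rw [pow_two, h.zz], h.z1⟩
  have hiso : ∀ g : L, g * z * g⁻¹ ∈ R → g * z * g⁻¹ = z := by
    intro g hg
    exact hcon _ (isConj_iff.mpr ⟨g, rfl⟩) ((h.mem _).mp hg)
  have hst := Cfsg.Agent.H4.zstar_sylow R hz2 hiso
  rcases IsSimpleGroup.eq_bot_or_eq_top_of_normal (Cfsg.pPrimeCore 2 L) inferInstance with hb | ht
  · apply hL
    have hzc : z ∈ Subgroup.center L := by
      rw [Subgroup.mem_center_iff]
      intro g
      have := hst g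
      rw [hb, Subgroup.mem_bot] at this
      calc g * z = (z * g * z⁻¹ * g⁻¹)⁻¹ * (z * g) := by group
        _ = z * g := by rw [this]; group
    rcases IsSimpleGroup.eq_bot_or_eq_top_of_normal (Subgroup.center L) inferInstance with h1 | h1
    · rw [h1, Subgroup.mem_bot] at hzc
      exact absurd hzc h.z1
    · exact ⟨⟨fun a b => by
        have : b ∈ Subgroup.center L := by rw [h1]; trivial
        exact (Subgroup.mem_center_iff.mp this a)⟩⟩
  · have h1 := Cfsg.Agent.Solv.pPrimeCore_card_coprime (G := L) 2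
    rw [ht, Subgroup.card_top] at h1
    have h2 : 2 ∣ Nat.card L := by rw [← hz2]; exact orderOf_dvd_natCard z
    have := Nat.Coprime.eq_one_of_dvd h1.symm h2
    omega

theorem Hyp.center_small {L : Type u₀} [Group L] [Finite L] [IsSimpleGroup L] (hL : ¬ IsMulCommutative L)
    {R : Sylow 2 L} {z : L} (h : Hyp R z) {u : L} (hu : ∀ x, x * z = z * x → x * u = u * x) :
    u = 1 ∨ u = z := by
  classical
  by_contra hcon
  push Not at hcon
  obtain ⟨hu1, huz⟩ := hcon
  have hzz : IsConj z z := IsConj.refl z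
  obtain ⟨t₁, ht1, ht1z, ht1n⟩ := exists_t hL h
  have huz' : u * z = z * u := (hu z rfl).symm
  have hut : u * t₁ = t₁ * u := (hu t₁ ht1z).symm
  have huu : u * u = 1 := h.sq_of_two hzz ht1 (Ne.symm ht1n) huz' hut
  have hnc : ∀ t, IsConj z t → t ≠ z → ¬ (∀ x, x * z = z * x → x * t = t * x) :=
    fun t ht hne hc => hne (h.eq_of_le hzz ht hc).symm
  -- choice of t₂
  obtain ⟨t₂, ht2, ht2z, ht2n, hcase⟩ : ∃ t₂, IsConj z t₂ ∧ t₂ * z = z * t₂ ∧ t₂ ≠ z ∧
      (t₁ * t₂ ≠ t₂ * t₁ ∨ (t₂ = t₁ ∧ ∀ v, IsConj z v → v * z = z * v → v * t₁ = t₁ * v)) := by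
    by_cases hex : ∃ t₂, IsConj z t₂ ∧ t₂ * z = z * t₂ ∧ t₁ * t₂ ≠ t₂ * t₁
    · obtain ⟨t₂, a1, a2, a3⟩ := hex
      refine ⟨t₂, a1, a2, ?_, Or.inl a3⟩
      rintro rfl
      exact a3 ht1z
    · push Not at hex
      exact ⟨t₁, ht1, ht1z, ht1n, Or.inr ⟨rfl, fun v hv hvz => (hex v hv hvz).symm⟩⟩
  have hT : ∀ v, IsConj z v → v * z = z * v → v ≠ z → v = t₁ ∨ v = z * t₁ ∨ v = t₂ ∨ v = z * t₂ := by
    intro v hv hvz hvn
    by_cases hc : t₁ * v = v * t₁
    · rcases h.claimA ht1 hv ht1z hvz ht1n hvn hc with h1 | h1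
      · exact Or.inl h1
      · exact Or.inr (Or.inl h1)
    · rcases hcase with h2 | ⟨-, h2⟩
      · have e1 : v * t₁ = z * (t₁ * v) := by
          rcases h.comm v t₁ hvz ht1z with h3 | h3
          · exact absurd h3.symm hc
          · exact h3
        have e2 : t₂ * t₁ = z * (t₁ * t₂) := by
          rcases h.comm t₂ t₁ ht2z ht1z with h3 | h3
          · exact absurd h3.symm h2
          · exact h3
        have e3 : (v * t₂) * t₁ = t₁ * (v * t₂) := by
          calc (v * t₂) * t₁ = v * (t₂ * t₁) := by group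
            _ = (v * z) * (t₁ * t₂) := by rw [e2]; group
            _ = z * (v * t₁) * t₂ := by rw [hvz]; group
            _ = (z * z) * (t₁ * (v * t₂)) := by rw [e1]; group
            _ = t₁ * (v * t₂) := by rw [h.zz, one_mul]
        have e4 : (v * t₂) * z = z * (v * t₂) := by
          rw [mul_assoc, ht2z, ← mul_assoc, hvz, mul_assoc]
        have e5 := h.sq_of_two hzz ht1 (Ne.symm ht1n) e4 e3
        have e6 : t₂ * v = v * t₂ := by
          have h3 := h.vv hv
          have h4 := h.vv ht2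
          calc t₂ * v = (v * v) * (t₂ * v) * (t₂ * t₂) := by rw [h3, h4]; group
            _ = v * ((v * t₂) * (v * t₂)) * t₂ := by group
            _ = v * t₂ := by rw [e5, mul_one]
        rcases h.claimA ht2 hv ht2z hvz ht2n hvn e6 with h1 | h1
        · exact Or.inr (Or.inr (Or.inl h1))
        · exact Or.inr (Or.inr (Or.inr h1))
      · exact absurd (h2 v hv hvz).symm hc
  -- membership in R
  have zR : z ∈ (R : Subgroup L) := (h.mem z).mpr rfl
  have uR : u ∈ (R : Subgroup L) := (h.mem u).mpr huz'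
  have t1R : t₁ ∈ (R : Subgroup L) := (h.mem t₁).mpr ht1z
  have t2R : t₂ ∈ (R : Subgroup L) := (h.mem t₂).mpr ht2z
  let z' : (R : Subgroup L) := ⟨z, zR⟩
  have hz' : ∀ x : (R : Subgroup L), x * z' = z' * x := fun x => Subtype.ext ((h.mem x).mp x.2)
  let Z₀ : Subgroup (R : Subgroup L) := Subgroup.zpowers z'
  have hZmem : ∀ x : (R : Subgroup L), x ∈ Z₀ ↔ (x : L) = 1 ∨ (x : L) = z := by
    intro x
    constructor
    · intro hx
      obtain ⟨k, rfl⟩ := Subgroup.mem_zpowers_iff.mp hx
      have e2 : z' ^ (2 : ℤ) = 1 := Subtype.ext (by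
        change z ^ (2 : ℤ) = 1
        rw [zpow_ofNat, pow_two, h.zz])
      rcases Int.even_or_odd' k with ⟨m, hm | hm⟩
      · left
        rw [hm, zpow_mul, e2, one_zpow]; rfl
      · right
        rw [hm, zpow_add, zpow_mul, e2, one_zpow, one_mul, zpow_one]
    · rintro (h1 | h1)
      · have : x = 1 := Subtype.ext h1
        rw [this]; exact one_mem _
      · have : x = z' := Subtype.ext h1
        rw [this]; exact Subgroup.mem_zpowers _
  have hZn : Z₀.Normal := by
    constructor
    intro n hn g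
    obtain ⟨k, rfl⟩ := Subgroup.mem_zpowers_iff.mp hn
    have h1 : Commute g (z' ^ k) := (show Commute g z' from hz' g).zpow_right k
    rw [h1.eq, mul_inv_cancel_right]
    exact hn
  let Q := (R : Subgroup L) ⧸ Z₀
  have hQc : ∀ a b : Q, a * b = b * a := by
    intro a b
    obtain ⟨x, rfl⟩ := QuotientGroup.mk'_surjective Z₀ a
    obtain ⟨y, rfl⟩ := QuotientGroup.mk'_surjective Z₀ b
    rw [← map_mul, ← map_mul]
    rcases h.comm x y ((h.mem x).mp x.2) ((h.mem y).mp y.2) with h1 | h1
    · have : x * y = y * x := Subtype.ext h1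
      rw [this]
    · have : x * y = z' * (y * x) := Subtype.ext h1
      rw [this, map_mul]
      have h2 : QuotientGroup.mk' Z₀ z' = 1 := by
        rw [← MonoidHom.mem_ker, QuotientGroup.ker_mk']
        exact Subgroup.mem_zpowers z'
      rw [h2, one_mul]
  letI : CommGroup Q := { (inferInstance : Group Q) with mul_comm := hQc }
  let C : Subgroup Q := Subgroup.closure {QuotientGroup.mk' Z₀ ⟨t₁, t1R⟩, QuotientGroup.mk' Z₀ ⟨t₂, t2R⟩}
  let φ : (R : Subgroup L) →* Q ⧸ C := (QuotientGroup.mk' C).comp (QuotientGroup.mk' Z₀)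
  have φz : φ z' = 1 := by
    change QuotientGroup.mk' C (QuotientGroup.mk' Z₀ z') = 1
    have h2 : QuotientGroup.mk' Z₀ z' = 1 := by
      rw [← MonoidHom.mem_ker, QuotientGroup.ker_mk']
      exact Subgroup.mem_zpowers z'
    rw [h2, map_one]
  have φt1 : φ ⟨t₁, t1R⟩ = 1 := by
    change QuotientGroup.mk' C (QuotientGroup.mk' Z₀ _) = 1
    rw [← MonoidHom.mem_ker, QuotientGroup.ker_mk']
    exact Subgroup.subset_closure (by simp)
  have φt2 : φ ⟨t₂, t2R⟩ = 1 := by
    change QuotientGroup.mk' C (QuotientGroup.mk' Z₀ _) = 1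
    rw [← MonoidHom.mem_ker, QuotientGroup.ker_mk']
    exact Subgroup.subset_closure (by simp)
  have φv : ∀ v (hv : v ∈ (R : Subgroup L)), IsConj z v → v ≠ z → φ ⟨v, hv⟩ = 1 := by
    intro v hv hc hn
    rcases hT v hc ((h.mem v).mp hv) hn with h1 | h1 | h1 | h1
    · subst h1; exact φt1
    · have : (⟨v, hv⟩ : (R : Subgroup L)) = z' * ⟨t₁, t1R⟩ := Subtype.ext h1
      rw [this, map_mul, φz, φt1, one_mul]
    · subst h1; exact φt2
    · have : (⟨v, hv⟩ : (R : Subgroup L)) = z' * ⟨t₂, t2R⟩ := Subtype.ext h1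
      rw [this, map_mul, φz, φt2, one_mul]
  have φu : φ ⟨u, uR⟩ ≠ 1 := by
    intro h1
    change QuotientGroup.mk' C (QuotientGroup.mk' Z₀ _) = 1 at h1
    rw [← MonoidHom.mem_ker, QuotientGroup.ker_mk', Subgroup.mem_closure_pair] at h1
    obtain ⟨m, n, hmn⟩ := h1
    have red : ∀ (t : L) (tR : t ∈ (R : Subgroup L)), t * t = 1 → ∀ k : ℤ, (⟨t, tR⟩ : (R : Subgroup L)) ^ k = 1 ∨
        (⟨t, tR⟩ : (R : Subgroup L)) ^ k = ⟨t, tR⟩ := by
      intro t tR htt k
      have e2 : (⟨t, tR⟩ : (R : Subgroup L)) ^ (2 : ℤ) = 1 := Subtype.ext (by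
        change t ^ (2 : ℤ) = 1
        rw [zpow_ofNat, pow_two, htt])
      rcases Int.even_or_odd' k with ⟨m, hm | hm⟩
      · left
        rw [hm, zpow_mul, e2, one_zpow]
      · right
        rw [hm, zpow_add, zpow_mul, e2, one_zpow, one_mul, zpow_one]
    rw [← map_zpow, ← map_zpow, ← map_mul] at hmn
    have hmn' := QuotientGroup.eq.mp hmn
    rw [hZmem] at hmn'
    -- x⁻¹ * u ∈ {1, z}
    have fin : ∀ x : L, (x⁻¹ * u = 1 ∨ x⁻¹ * u = z) → (∀ y, y * z = z * y → y * x = x * y) := by
      intro x hx y hy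
      have e : x = u * 1 ∨ x = u * z := by
        rcases hx with h1 | h1
        · left; rw [mul_one]; exact (inv_mul_eq_one.mp h1)
        · right
          calc x = u * (x⁻¹ * u)⁻¹ := by group
            _ = u * z⁻¹ := by rw [h1]
            _ = u * z := by rw [inv_eq_of_mul_eq_one_right h.zz]
      have hyu := hu y hy
      rcases e with e | e
      · rw [e, mul_one]; exact hyu
      · rw [e]
        calc y * (u * z) = (y * u) * z := by group
          _ = u * (y * z) := by rw [hyu]; group
          _ = (u * z) * y := by rw [hy]; group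
    have caseOne : ¬ ((1 : L)⁻¹ * u = 1 ∨ (1 : L)⁻¹ * u = z) := by
      rw [inv_one, one_mul]
      rintro (h1 | h1)
      · exact hu1 h1
      · exact huz h1
    rcases red t₁ t1R (h.vv ht1) m with e1 | e1 <;> rcases red t₂ t2R (h.vv ht2) n with e2 | e2
    · rw [e1, e2, mul_one] at hmn'
      exact caseOne hmn'
    · rw [e1, e2, one_mul] at hmn'
      exact hnc t₂ ht2 ht2n (fin t₂ hmn')
    · rw [e1, e2, mul_one] at hmn'
      exact hnc t₁ ht1 ht1n (fin t₁ hmn')
    · rw [e1, e2] at hmn'
      rcases hcase with h2 | ⟨h2, -⟩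
      · have h3 := fin (t₁ * t₂) hmn' t₁ ht1z
        apply h2
        have h4 : t₁ * (t₁ * t₂) = t₁ * (t₂ * t₁) := by rw [h3, mul_assoc]
        exact mul_left_cancel h4
      · apply caseOne
        have h3 : ((t₁ * t₂)⁻¹ * u = 1 ∨ (t₁ * t₂)⁻¹ * u = z) := hmn'
        rw [h2, h.vv ht1] at h3
        exact h3
  -- transfer
  have htr := transfer_eq_pow_inv φ u uR (by rw [pow_two, huu]) (by
    intro g hg
    rcases h.claimB (w := g) hu ((h.mem _).mp hg) with h1 | ⟨v, v1, v2, v3, v4⟩
    · congr 1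
      exact Subtype.ext h1
    · have vR : v ∈ (R : Subgroup L) := (h.mem v).mpr v2
      have : (⟨g⁻¹ * u * g, hg⟩ : (R : Subgroup L)) = ⟨u, uR⟩ * z' * ⟨v, vR⟩ := Subtype.ext v4
      rw [this, map_mul, map_mul, φz, φv v vR v1 v3, mul_one, mul_one])
  have hker : MonoidHom.transfer φ u = 1 := by
    rcases IsSimpleGroup.eq_bot_or_eq_top_of_normal (MonoidHom.transfer φ).ker inferInstance with h1 | h1
    · exfalso
      apply hL
      have hinj := (MonoidHom.ker_eq_bot_iff _).mp h1
      exact ⟨⟨fun a b => hinj (by rw [map_mul, map_mul, mul_comm])⟩⟩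
    · have : u ∈ (MonoidHom.transfer φ).ker := by rw [h1]; trivial
      exact this
  rw [hker] at htr
  apply φu
  have hodd : ¬ 2 ∣ (R : Subgroup L).index := R.not_dvd_index
  have hu2 : φ ⟨u, uR⟩ ^ 2 = 1 := by
    rw [← map_pow]
    have : (⟨u, uR⟩ : (R : Subgroup L)) ^ 2 = 1 := Subtype.ext (by
      change u ^ 2 = 1
      rw [pow_two, huu])
    rw [this, map_one]
  have h1 : Odd (R : Subgroup L).index := by
    rw [← Nat.not_even_iff_odd, even_iff_two_dvd]; exact hodd
  obtain ⟨m, hm⟩ := h1
  rw [hm, pow_succ, pow_mul, hu2, one_pow, one_mul] at htr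
  exact htr.symm

theorem Hyp.card_eight {L : Type u₀} [Group L] [Finite L] [IsSimpleGroup L] (hL : ¬ IsMulCommutative L)
    {R : Sylow 2 L} {z : L} (h : Hyp R z) : Nat.card (R : Subgroup L) = 8 ∧
      ∃ x y, x ∈ (R : Subgroup L) ∧ y ∈ (R : Subgroup L) ∧ x * x = 1 ∧ y * y = 1 ∧ x * y ≠ y * x := by
  classical
  have hzz : IsConj z z := IsConj.refl z
  obtain ⟨t, ht, htz, htn⟩ := exists_t hL h
  obtain ⟨s, hs1, hs2⟩ := h.exists_s hzz ht (Ne.symm htn) htz.symm
  have ht2 := h.vv ht
  have ht1 := h.v1 ht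
  have zi : z⁻¹ = z := inv_eq_of_mul_eq_one_right h.zz
  -- D = {1, z, t, z t}
  have hD : ∀ a, a * z = z * a → a * t = t * a → a = 1 ∨ a = z ∨ a = t ∨ a = z * t := by
    intro a haz hat
    rcases h.central_or hzz ht (Ne.symm htn) hs1 hs2 haz hat with h1 | h1
    · rcases h.center_small hL h1 with h2 | h2
      · exact Or.inl h2
      · exact Or.inr (Or.inl h2)
    · have e1 : s * (a * t) = (a * t) * s := by
        calc s * (a * t) = (s * a) * t := by group
          _ = z * a * (s * t) := by rw [h1]; group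
          _ = z * (a * z) * (t * s) := by rw [hs2]; group
          _ = (z * z) * (a * t * s) := by rw [haz]; group
          _ = (a * t) * s := by rw [h.zz, one_mul]
      have e2 : (a * t) * z = z * (a * t) := by rw [mul_assoc, htz, ← mul_assoc, haz, mul_assoc]
      have e3 : (a * t) * t = t * (a * t) := by rw [hat, mul_assoc, hat]
      have e4 : ∀ x, x * z = z * x → x * (a * t) = (a * t) * x := by
        rcases h.central_or hzz ht (Ne.symm htn) hs1 hs2 e2 e3 with h2 | h2
        · exact h2
        · exfalso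
          rw [e1] at h2
          have h7 : 1 * (a * t * s) = z * (a * t * s) := by rw [one_mul]; exact h2
          exact h.z1 (mul_right_cancel h7).symm
      have e5 : a = (a * t) * t := by rw [mul_assoc, ht2, mul_one]
      rcases h.center_small hL e4 with h2 | h2
      · right; right; left
        rw [e5, h2, one_mul]
      · right; right; right
        rw [e5, h2]
  have zR : z ∈ (R : Subgroup L) := (h.mem z).mpr rfl
  have sR : s ∈ (R : Subgroup L) := (h.mem s).mpr hs1
  have tR : t ∈ (R : Subgroup L) := (h.mem t).mpr htz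
  have hst : s * t ≠ t * s := by
    intro h1
    rw [hs2, ] at h1
    have h7 : z * (t * s) = 1 * (t * s) := by rw [one_mul]; exact h1
    exact h.z1 (mul_right_cancel h7)
  constructor
  · set D : Subgroup L := (R : Subgroup L) ⊓ Subgroup.centralizer {t} with hDd
    have hDm : ∀ a, a ∈ D ↔ a * z = z * a ∧ a * t = t * a := by
      intro a
      rw [hDd, Subgroup.mem_inf, h.mem, Subgroup.mem_centralizer_singleton_iff]
    have hDset : (D : Set L) = ((({1, z, t, z * t} : Finset L)) : Set L) := by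
      ext a
      simp only [Finset.coe_insert, Finset.coe_singleton, Set.mem_insert_iff, Set.mem_singleton_iff, SetLike.mem_coe]
      constructor
      · intro ha
        rw [hDm] at ha
        exact hD a ha.1 ha.2
      · rintro (rfl | rfl | rfl | rfl)
        · exact one_mem _
        · rw [hDm]; exact ⟨rfl, htz.symm⟩
        · rw [hDm]; exact ⟨htz, rfl⟩
        · rw [hDm]
          refine ⟨by rw [mul_assoc, htz], ?_⟩
          rw [← htz, mul_assoc, ← htz, ]
    have hDc : Nat.card D = 4 := by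
      have h1 : Nat.card D = Nat.card ((({1, z, t, z * t} : Finset L)) : Set L) := by
        rw [← hDset]; rfl
      rw [h1, Nat.card_eq_card_toFinset, Finset.toFinset_coe]
      have n1 : (1 : L) ≠ z := h.z1.symm
      have n2 : (1 : L) ≠ t := ht1.symm
      have n3 : (1 : L) ≠ z * t := by
        intro h2
        apply htn
        have : t = z⁻¹ * (z * t) := by group
        rw [this, ← h2, mul_one, zi]
      have n4 : z ≠ t := htn.symm
      have n5 : z ≠ z * t := by
        intro h2
        exact ht1 (mul_left_cancel (show z * t = z * 1 by rw [mul_one]; exact h2.symm))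
      have n6 : t ≠ z * t := by
        intro h2
        exact h.z1 (mul_right_cancel (show z * t = 1 * t by rw [one_mul]; exact h2.symm))
      simp [n1, n2, n3, n4, n5, n6]
    have hidx : (D.subgroupOf (R : Subgroup L)).index = 2 := by
      rw [Subgroup.index_eq_two_iff']
      refine ⟨⟨s, sR⟩, ?_⟩
      rintro ⟨b, hb⟩
      have hbz := (h.mem b).mp hb
      rw [Subgroup.mem_subgroupOf, Subgroup.mem_subgroupOf, hDm, hDm]
      change Xor ((s * b) * z = z * (s * b) ∧ (s * b) * t = t * (s * b)) (b * z = z * b ∧ b * t = t * b)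
      have e1 : (s * b) * z = z * (s * b) := by
        rw [mul_assoc, hbz, ← mul_assoc, hs1, mul_assoc]
      rcases h.comm b t hbz htz with h1 | h1
      · right
        refine ⟨⟨hbz, h1⟩, ?_⟩
        rintro ⟨-, h2⟩
        apply hst
        have h3 : (s * t) * b = (t * s) * b := by
          calc (s * t) * b = s * (b * t) := by rw [h1]; group
            _ = (s * b) * t := by group
            _ = (t * s) * b := by rw [h2]; group
        exact mul_right_cancel h3
      · left
        refine ⟨⟨e1, ?_⟩, ?_⟩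
        · calc (s * b) * t = s * (b * t) := by group
            _ = (s * z) * (t * b) := by rw [h1]; group
            _ = z * (s * t) * b := by rw [hs1]; group
            _ = (z * z) * (t * (s * b)) := by rw [hs2]; group
            _ = t * (s * b) := by rw [h.zz, one_mul]
        · rintro ⟨-, h2⟩
          rw [h2] at h1
          have h7 : 1 * (t * b) = z * (t * b) := by rw [one_mul]; exact h1
          exact h.z1 (mul_right_cancel h7).symm
    have h3 := Subgroup.card_mul_index (D.subgroupOf (R : Subgroup L))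
    rw [hidx, Nat.card_congr (Subgroup.subgroupOfEquivOfLe (inf_le_left : D ≤ (R : Subgroup L))).toEquiv, hDc] at h3
    exact h3.symm
  · rcases h.sq s hs1 with h1 | h1
    · exact ⟨s, t, sR, tR, h1, ht2, hst⟩
    · refine ⟨s * t, t, mul_mem sR tR, tR, ?_, ht2, ?_⟩
      · calc s * t * (s * t) = (s * t) * s * t := by group
          _ = z * t * (s * s) * t := by rw [hs2]; group
          _ = z * (t * z) * t := by rw [h1]; group
          _ = (z * z) * (t * t) := by rw [htz]; group
          _ = 1 := by rw [h.zz, ht2, one_mul]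
      · intro h2
        apply hst
        rw [← mul_assoc] at h2
        exact mul_right_cancel h2

end Cfsg.Agent.H51.SmallFrat
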