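import Cfsg.Agent.ChevGrp.Bruhat

set_option autoImplicit false

/-!
Fusion inside the torus of a split BN-pair, and sections.
-/

namespace Cfsg.Agent.H51.TorFus

open Cfsg.Agent.ChevGrp

variable {l n : ℕ} {S : WSys l n} {G : Type*} [Group G]

/-- powers of `v * h` modulo a subgroup normalised by `h` -/
theorem pow_mem {U : Subgroup G} {h : G} (hn : ∀ u ∈ U, h * u * h⁻¹ ∈ U) {v : G} (hv : v ∈ U) (k : ℕ) :
    ∃ w ∈ U, (v * h) ^ k = w * h ^ k := by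
  induction k with
  | zero => exact ⟨1, one_mem _, by simp⟩
  | succ k ih =>
    obtain ⟨w, hw, he⟩ := ih
    have h1 : ∀ j : ℕ, ∀ u ∈ U, h ^ j * u * (h ^ j)⁻¹ ∈ U := by
      intro j
      induction j with
      | zero => intro u hu; simpa using hu
      | succ j ihj =>
        intro u hu
        have := hn _ (ihj u hu)
        have e : h ^ (j + 1) * u * (h ^ (j + 1))⁻¹ = h * (h ^ j * u * (h ^ j)⁻¹) * h⁻¹ := by
          rw [pow_succ' h j]; group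
        rw [e]; exact this
    refine ⟨w * (h ^ k * v * (h ^ k)⁻¹), U.mul_mem hw (h1 k v hv), ?_⟩
    rw [pow_succ, he, pow_succ h k]
    group

/-- the monomial subgroup controls fusion of subsets of the torus -/
theorem exists_mem_N (R : RGrp S G) {p : ℕ} [Fact p.Prime] (hU : IsPGroup p R.U) (hH : Nat.Coprime p (Nat.card R.H))
    (hc : ∀ a ∈ R.H, ∀ b ∈ R.H, a * b = b * a) {g : G} (hg : g ∈ R.Grp) :
    ∃ m ∈ R.N, ∀ s ∈ R.H, g * s * g⁻¹ ∈ R.H → g * s * g⁻¹ = m * s * m⁻¹ := by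
  obtain ⟨b, hb, m, hm, b', hb', rfl⟩ := RGrp.exists_bnb hg
  obtain ⟨u, hu, h, hh, rfl⟩ := RGrp.mem_B.1 hb
  obtain ⟨u', hu', h', hh', rfl⟩ := RGrp.mem_B.1 hb'
  refine ⟨h * m * h', R.N.mul_mem (R.N.mul_mem (R.H_le_N hh) hm) (R.H_le_N hh'), ?_⟩
  intro s hs hgs
  set s' := u * h * m * (u' * h') * s * (u * h * m * (u' * h'))⁻¹ with hs'
  -- the element v
  have hHU : ∀ a ∈ R.H, ∀ x ∈ R.U, a * x * a⁻¹ ∈ R.U := RGrp.H_norm_gen _
  set v := u' * (s * u'⁻¹ * s⁻¹) with hv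
  have hvU : v ∈ R.U := R.U.mul_mem hu' (hHU s hs _ (R.U.inv_mem hu'))
  have e1 : (u' * h') * s * (u' * h')⁻¹ = v * s := by
    have : h' * s = s * h' := hc _ hh' _ hs
    rw [hv]
    calc (u' * h') * s * (u' * h')⁻¹ = u' * (h' * s) * h'⁻¹ * u'⁻¹ := by group
      _ = u' * (s * h') * h'⁻¹ * u'⁻¹ := by rw [this]
      _ = u' * (s * u'⁻¹ * s⁻¹) * s := by group
  -- the element v'
  set v' := s'⁻¹ * u⁻¹ * s' * u with hv'
  have hv'U : v' ∈ R.U := by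
    have := hHU _ (R.H.inv_mem hgs) _ (R.U.inv_mem hu)
    have e : v' = s'⁻¹ * u⁻¹ * s'⁻¹⁻¹ * u := by rw [hv']; group
    rw [e]; exact R.U.mul_mem this hu
  set M := h * m with hM
  have hMN : M ∈ R.N := R.N.mul_mem (R.H_le_N hh) hm
  set t := M⁻¹ * s' * M with ht
  have htH : t ∈ R.H := RGrp.N_conj_H' hMN hgs
  have e2 : t * (M⁻¹ * v' * M) = v * s := by
    rw [← e1, ht, hv', hs', hM]
    group
  have e3 : M⁻¹ * v' * M = (t⁻¹ * v * t) * (t⁻¹ * s) := by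
    have : M⁻¹ * v' * M = t⁻¹ * (v * s) := by rw [← e2]; group
    rw [this]; group
  have hv'' : t⁻¹ * v * t ∈ R.U := by
    have := hHU _ (R.H.inv_mem htH) _ hvU
    simpa using this
  -- `t⁻¹ s` is a p-element
  obtain ⟨k, hk⟩ := hU ⟨v', hv'U⟩
  have hk' : v' ^ p ^ k = 1 := by simpa using congrArg Subtype.val hk
  have hk2 : (M⁻¹ * v' * M) ^ p ^ k = 1 := by
    have : M⁻¹ * v' * M = M⁻¹ * v' * M⁻¹⁻¹ := by simp
    rw [this, conj_pow, hk']; simp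
  have hhU : ∀ x ∈ R.U, (t⁻¹ * s) * x * (t⁻¹ * s)⁻¹ ∈ R.U := hHU _ (R.H.mul_mem (R.H.inv_mem htH) hs)
  obtain ⟨w, hw, hwe⟩ := pow_mem hhU hv'' (p ^ k)
  rw [← e3, hk2] at hwe
  have h4 : (t⁻¹ * s) ^ p ^ k = 1 := by
    have h5 : (t⁻¹ * s) ^ p ^ k = w⁻¹ := (inv_eq_of_mul_eq_one_right hwe.symm).symm
    exact R.UH _ (by rw [h5]; exact R.U.inv_mem hw) (R.H.pow_mem (R.H.mul_mem (R.H.inv_mem htH) hs) _)
  have h6 : t⁻¹ * s = 1 := by
    have h7 : orderOf (t⁻¹ * s) ∣ p ^ k := orderOf_dvd_of_pow_eq_one h4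
    have h8 : orderOf (t⁻¹ * s) ∣ Nat.card R.H := by
      have := orderOf_dvd_natCard (⟨t⁻¹ * s, R.H.mul_mem (R.H.inv_mem htH) hs⟩ : R.H)
      rwa [Subgroup.orderOf_mk] at this
    have h9 : orderOf (t⁻¹ * s) ∣ 1 := by
      have := Nat.Coprime.pow_left k hH
      rw [← this.gcd_eq_one]; exact Nat.dvd_gcd h7 h8
    exact orderOf_eq_one_iff.1 (Nat.dvd_one.1 h9)
  have h10 : t = s := (inv_mul_eq_one.1 h6)
  have h11 : s' = M * s * M⁻¹ := by rw [← h10, ht]; group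
  rw [h11]
  have : h' * s = s * h' := hc _ hh' _ hs
  calc M * s * M⁻¹ = M * (s * h') * h'⁻¹ * M⁻¹ := by group
    _ = M * (h' * s) * h'⁻¹ * M⁻¹ := by rw [this]
    _ = M * h' * s * (M * h')⁻¹ := by group

/-- sections: an element of a quotient normalising a cyclic `ℓ`-subgroup -/
theorem section_pow {Γ Q : Type*} [Group Γ] [Group Q] [Finite Γ] {ℓ : ℕ} [Fact ℓ.Prime] {d : ℕ}
    (hd : ∀ P : Subgroup Γ, IsPGroup ℓ P → ∀ g : Γ, (∀ x ∈ P, g * x * g⁻¹ ∈ P) → ∀ x ∈ P, g ^ d * x = x * g ^ d)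
    (φ : Γ →* Q) (hφ : Function.Surjective φ) {C : Subgroup Q} (hC : IsPGroup ℓ C) {c σ : Q} (hc : c ∈ C)
    (hσ : ∀ x ∈ C, σ * x * σ⁻¹ ∈ C) : ∃ y ∈ C, (y * σ) ^ d * c = c * (y * σ) ^ d := by
  classical
  have : Finite Q := Finite.of_surjective φ hφ
  set Y := C.comap φ with hY
  obtain ⟨s, hs⟩ := hφ σ
  have hsY : ∀ x ∈ Y, s * x * s⁻¹ ∈ Y := by
    intro x hx
    rw [hY, Subgroup.mem_comap] at hx ⊢
    rw [map_mul, map_mul, map_inv, hs]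
    exact hσ _ hx
  let f : Y →* C := (φ.comp Y.subtype).codRestrict C (fun x => x.2)
  have hf : Function.Surjective f := by
    rintro ⟨x, hx⟩
    obtain ⟨y, rfl⟩ := hφ x
    exact ⟨⟨y, hx⟩, rfl⟩
  obtain ⟨P⟩ : Nonempty (Sylow ℓ Y) := inferInstance
  let α : Y →* Y := ((MulAut.conj s).toMonoidHom.comp Y.subtype).codRestrict Y (fun x => hsY _ x.2)
  have hα : ∀ x : Y, ((α x : Y) : Γ) = s * x * s⁻¹ := fun x => rfl
  have hP1 : IsPGroup ℓ ((P : Subgroup Y).map α) := P.2.map α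
  obtain ⟨R, hR⟩ := hP1.exists_le_sylow
  obtain ⟨y, hy⟩ := MulAction.exists_smul_eq Y R P
  have h1 : ∀ x ∈ (P : Subgroup Y), y * α x * y⁻¹ ∈ (P : Subgroup Y) := by
    intro x hx
    have h2 : α x ∈ (R : Subgroup Y) := hR ⟨x, hx, rfl⟩
    rw [← hy]
    exact ⟨α x, h2, rfl⟩
  have h3 := hd ((P : Subgroup Y).map Y.subtype) (P.2.map _) ((y : Γ) * s) (by
    rintro _ ⟨x, hx, rfl⟩
    refine ⟨_, h1 x hx, ?_⟩
    change ((y * α x * y⁻¹ : Y) : Γ) = _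
    rw [Subgroup.coe_mul, Subgroup.coe_mul, hα, Subgroup.coe_inv]
    change _ = (y : Γ) * s * (x : Γ) * ((y : Γ) * s)⁻¹
    group)
  have h4 : (P : Subgroup Y).map f = ⊤ := by
    have h5 : ((P.mapSurjective hf : Sylow ℓ C) : Subgroup C) = (P : Subgroup Y).map f := rfl
    have h6 : IsPGroup ℓ (⊤ : Subgroup C) := hC.of_equiv Subgroup.topEquiv.symm
    have h7 := (P.mapSurjective hf).3 h6 le_top
    rw [← h5, ← h7]
  obtain ⟨x, hx, hxc⟩ : (⟨c, hc⟩ : C) ∈ (P : Subgroup Y).map f := by rw [h4]; trivial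
  have hxc' : φ (x : Γ) = c := congrArg Subtype.val hxc
  refine ⟨φ y, y.2, ?_⟩
  have h8 := congrArg φ (h3 x ⟨x, hx, rfl⟩)
  rw [map_mul, map_mul, map_pow, map_mul, hs, hxc'] at h8
  exact h8

/-- powers: if `g` and `m` induce the same map on a subgroup `P ≤ H` normalised by `g` -/
theorem pow_comm (R : RGrp S G) {p : ℕ} [Fact p.Prime] (hU : IsPGroup p R.U) (hH : Nat.Coprime p (Nat.card R.H))
    (hc : ∀ a ∈ R.H, ∀ b ∈ R.H, a * b = b * a) {d : ℕ} (hN : ∀ m ∈ R.N, m ^ d ∈ R.H) {P : Subgroup G}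
    (hP : P ≤ R.H) {g : G} (hg : g ∈ R.Grp) (hgP : ∀ x ∈ P, g * x * g⁻¹ ∈ P) : ∀ x ∈ P, g ^ d * x = x * g ^ d := by
  obtain ⟨m, hm, hmg⟩ := exists_mem_N R hU hH hc hg
  have key : ∀ k : ℕ, ∀ x ∈ P, g ^ k * x * (g ^ k)⁻¹ ∈ P ∧ g ^ k * x * (g ^ k)⁻¹ = m ^ k * x * (m ^ k)⁻¹ := by
    intro k
    induction k with
    | zero => intro x hx; simpa using hx
    | succ k ih =>
      intro x hx
      have e1 : g ^ (k + 1) * x * (g ^ (k + 1))⁻¹ = g * (g ^ k * x * (g ^ k)⁻¹) * g⁻¹ := by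
        rw [pow_succ' g k]; group
      have e2 : m ^ (k + 1) * x * (m ^ (k + 1))⁻¹ = m * (m ^ k * x * (m ^ k)⁻¹) * m⁻¹ := by
        rw [pow_succ' m k]; group
      obtain ⟨h1, h2⟩ := ih x hx
      rw [e1, e2, ← h2]
      exact ⟨hgP _ h1, hmg _ (hP h1) (hP (hgP _ h1))⟩
  intro x hx
  have h1 := (key d x hx).2
  have h2 : m ^ d * x = x * m ^ d := hc _ (hN m hm) _ (hP hx)
  rw [h2, mul_inv_cancel_right] at h1
  rw [mul_inv_eq_iff_eq_mul] at h1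
  exact h1

/-- the same for the `ℓ`-subgroups of a finite group whose torus has index prime to `ℓ` -/
theorem pow_comm_sylow (R : RGrp S G) {p : ℕ} [Fact p.Prime] (hU : IsPGroup p R.U)
    (hH : Nat.Coprime p (Nat.card R.H)) (hc : ∀ a ∈ R.H, ∀ b ∈ R.H, a * b = b * a) {d : ℕ}
    (hN : ∀ m ∈ R.N, m ^ d ∈ R.H) {Tw : Subgroup G} (hTw : R.Grp = Tw) [Finite Tw] {ℓ : ℕ} [Fact ℓ.Prime]
    (hℓ : ¬ ℓ ∣ (R.H.subgroupOf Tw).index) (P : Subgroup Tw) (hP : IsPGroup ℓ P) (g : Tw)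
    (hgP : ∀ x ∈ P, g * x * g⁻¹ ∈ P) : ∀ x ∈ P, g ^ d * x = x * g ^ d := by
  classical
  obtain ⟨T⟩ : Nonempty (Sylow ℓ (R.H.subgroupOf Tw)) := inferInstance
  obtain ⟨T', hT'⟩ : ∃ T' : Sylow ℓ Tw, (T' : Subgroup Tw) = (T : Subgroup (R.H.subgroupOf Tw)).map (R.H.subgroupOf Tw).subtype := by
    refine ⟨IsPGroup.toSylow (T.2.map _) ?_, rfl⟩
    have h1 := Subgroup.relIndex_mul_index (H := (T : Subgroup (R.H.subgroupOf Tw)).map (R.H.subgroupOf Tw).subtype)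
      (K := R.H.subgroupOf Tw) (by rintro _ ⟨x, -, rfl⟩; exact x.2)
    rw [← h1]
    intro h2
    rcases (Fact.out : ℓ.Prime).dvd_mul.1 h2 with h3 | h3
    · apply T.not_dvd_index
      have : ((T : Subgroup (R.H.subgroupOf Tw)).map (R.H.subgroupOf Tw).subtype).relIndex (R.H.subgroupOf Tw) =
          (T : Subgroup (R.H.subgroupOf Tw)).index := by
        rw [Subgroup.relIndex]
        congr 1
        exact Subgroup.comap_map_eq_self_of_injective (R.H.subgroupOf Tw).subtype_injective _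
      rwa [this] at h3
    · exact hℓ h3
  obtain ⟨Q, hQ⟩ := hP.exists_le_sylow
  obtain ⟨y, hy⟩ := MulAction.exists_smul_eq Tw Q T'
  have h1 : ∀ x ∈ P, y * x * y⁻¹ ∈ R.H.subgroupOf Tw := by
    intro x hx
    have h2 : y * x * y⁻¹ ∈ (T' : Subgroup Tw) := by
      rw [← hy]; exact ⟨x, hQ hx, rfl⟩
    rw [hT'] at h2
    obtain ⟨z, -, hz⟩ := h2
    rw [← hz]; exact z.2
  let P1 : Subgroup G := (P.map (MulAut.conj y).toMonoidHom).map Tw.subtype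
  have hP1 : P1 ≤ R.H := by
    rintro _ ⟨_, ⟨x, hx, rfl⟩, rfl⟩
    exact h1 x hx
  have h3 := pow_comm R hU hH hc hN hP1 (g := ((y * g * y⁻¹ : Tw) : G)) (by rw [hTw]; exact (y * g * y⁻¹).2) (by
    rintro _ ⟨_, ⟨x, hx, rfl⟩, rfl⟩
    refine ⟨_, ⟨_, hgP x hx, rfl⟩, ?_⟩
    rw [← Subgroup.coe_inv]
    change ((y * (g * x * g⁻¹) * y⁻¹ : Tw) : G) = (y * g * y⁻¹ : Tw) * (y * x * y⁻¹ : Tw) * ((y * g * y⁻¹)⁻¹ : Tw)
    rw [← Subgroup.coe_mul, ← Subgroup.coe_mul]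
    congr 1
    group)
  intro x hx
  have h4 := h3 _ ⟨_, ⟨x, hx, rfl⟩, rfl⟩
  have h5 : (y * g * y⁻¹) ^ d * (y * x * y⁻¹) = (y * x * y⁻¹) * (y * g * y⁻¹) ^ d := by
    apply Subtype.ext
    rw [Subgroup.coe_mul, Subgroup.coe_mul, Subgroup.coe_pow]
    exact h4
  rw [conj_pow] at h5
  have h6 : y * (g ^ d * x) * y⁻¹ = y * (x * g ^ d) * y⁻¹ := by
    calc y * (g ^ d * x) * y⁻¹ = y * g ^ d * y⁻¹ * (y * x * y⁻¹) := by group
      _ = y * x * y⁻¹ * (y * g ^ d * y⁻¹) := h5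
      _ = y * (x * g ^ d) * y⁻¹ := by group
  exact mul_left_cancel (mul_right_cancel h6)

end Cfsg.Agent.H51.TorFus
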