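import Cfsg.Agent.H51.D4Diag3
import Cfsg.Agent.H51.TorFus

set_option autoImplicit false
set_option maxRecDepth 100000

/-!
Local structure of the triality twisted groups of type D4.
-/

namespace Cfsg.Agent.H51.TD4

open Matrix Cfsg.Lie Cfsg.Agent.Chev Cfsg.Agent.ChevGrp Cfsg.Agent.ChevF Cfsg.Agent.H51.TwoPrime Cfsg.Agent.H51.ChevFus
  Cfsg.Agent.H51.F4W Cfsg.Agent.H51.D4W Cfsg.Agent.H51.D4Diag Cfsg.Agent.Tw3 Cfsg.Agent.ChevGrp.DData

variable {K : Type*} [Field K] (φ : K ≃+* K)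

/-- the twisted system in the general linear group -/
noncomputable abbrev TT : RGrp dG2.rp.wsys (GL chevD4.Idx K) := out (tD4 φ)

/-- the split system -/
noncomputable abbrev RR (K : Type*) [Field K] : RGrp dD4.rp.wsys (GL chevD4.Idx K) := chev dD4 goodD4 K

/-- the words of the twisted reflections -/
def LDG (j : Fin chevG2.rank) : List (Fin chevD4.rank) := LD4 j

lemma nd_coe (L : List (Fin chevD4.rank)) :
    (((chevG dD4 goodD4 K).nd L : ↥(chevD4.group K)) : GL chevD4.Idx K) = (RR K).nd L := by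
  induction L with
  | nil => rfl
  | cons i L ih =>
    rw [RGrp.nd_cons, RGrp.nd_cons, Subgroup.coe_mul, ih]
    rfl

lemma nn_eq (j : Fin chevG2.rank) : (TT φ).nn j = (RR K).nd (LDG j) := by
  have h : (TT φ).nn j = (((chevG dD4 goodD4 K).nd (LDG j) : ↥(chevD4.group K)) : GL chevD4.Idx K) := rfl
  rw [h, nd_coe]

/-- elements of `N` of the twisted group -/
theorem act_N {n : GL chevD4.Idx K} (hn : n ∈ (TT φ).N) : n ∈ (RR K).N ∧
    ∃ u ∈ dD4.rp.wsys.W, (RR K).Act n u ∧ ∃ x ∈ LG, wmD u = x.toMat := by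
  have hHle : (TT φ).H ≤ (RR K).H := by
    rintro _ ⟨x, hx, rfl⟩
    exact hx.1
  obtain ⟨L, h, hh, rfl⟩ := RGrp.exists_nd hn
  have key : ∀ L : List (Fin chevG2.rank), (TT φ).nd L ∈ (RR K).N ∧ ∃ u ∈ dD4.rp.wsys.W, (RR K).Act ((TT φ).nd L) u ∧
      ∃ x ∈ LG, wmD u = x.toMat := by
    intro L
    induction L with
    | nil => exact ⟨one_mem _, 1, one_mem _, RGrp.act_one, M4.one, by decide +kernel, by rw [wmD_one, M4.toMat_one]⟩
    | cons j L ih =>
      obtain ⟨h1, u, hu, h2, x, hx, h3⟩ := ih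
      have e : (TT φ).nd (j :: L) = (RR K).nd (LDG j) * (TT φ).nd L := by
        rw [RGrp.nd_cons, nn_eq]
      have hact := (RGrp.act_nd (R := RR K) (LDG j)).mul h2
      rw [← e] at hact
      refine ⟨by rw [e]; exact mul_mem (RGrp.nd_mem_N _) h1, _, hact.mem, hact, ?_⟩
      have hc := cloG
      rw [List.all_eq_true] at hc
      have hj : ∃ y ∈ ([S0.mul (S2.mul S3), S1] : List M4), wmD (dD4.rp.wsys.wd (LDG j) * u) = (y.mul x).toMat := by
        have hw : ∀ i : Fin 4, ∀ v, wmD (wD i * v) = (([S0, S1, S2, S3] : List M4).get ⟨i, i.2⟩).toMat * wmD v := by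
          intro i v; rw [wmD_w, RmD_eq]
        have hj' : j = (0 : Fin 2) ∨ j = (1 : Fin 2) := by
          have : ∀ j : Fin 2, j = 0 ∨ j = 1 := by decide
          exact this j
        rcases hj' with rfl | rfl
        · refine ⟨S0.mul (S2.mul S3), by simp, ?_⟩
          have e1 : dD4.rp.wsys.wd (LDG (0 : Fin 2)) * u = wD 0 * (wD 2 * (wD 3 * u)) := rfl
          refine (congrArg wmD e1).trans ?_
          rw [hw, hw, hw, h3, M4.toMat_mul, M4.toMat_mul, M4.toMat_mul]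
          simp only [mul_assoc]
          rfl
        · refine ⟨S1, by simp, ?_⟩
          have e1 : dD4.rp.wsys.wd (LDG (1 : Fin 2)) * u = wD 1 * u := rfl
          refine (congrArg wmD e1).trans ?_
          rw [hw, h3, M4.toMat_mul]
          rfl
      obtain ⟨y, hy, h4⟩ := hj
      have h5 := hc y hy
      rw [List.all_eq_true] at h5
      have h6 := h5 x hx
      rw [List.any_eq_true] at h6
      obtain ⟨z, hz, h7⟩ := h6
      exact ⟨z, hz, by rw [h4, of_decide_eq_true h7]⟩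
  obtain ⟨h1, u, hu, h2, x, hx, h3⟩ := key L
  refine ⟨mul_mem h1 ((RR K).H_le_N (hHle hh)), u, hu, ?_, x, hx, h3⟩
  have := h2.mul (RGrp.act_H (R := RR K) (hHle hh))
  rwa [mul_one] at this

/-- values of the torus elements -/
theorem H_ev (h3 : ∀ t, φ (φ (φ t)) = t) {a : GL chevD4.Idx K} (ha : a ∈ (TT φ).H) : a ∈ chevD4.diagonalSubgroup K ∧
    φ (ev a (pD 0)) = ev a (pD 2) ∧ φ (ev a (pD 2)) = ev a (pD 3) ∧ φ (ev a (pD 1)) = ev a (pD 1) := by
  obtain ⟨g, hg, rfl⟩ := ha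
  have hgH : (g : GL chevD4.Idx K) ∈ chevD4.diagonalSubgroup K := hg.1
  refine ⟨hgH, ?_⟩
  obtain ⟨c, d, hd, rfl⟩ := (mem_twH goodD4 dD4 dG2 φ h3 g).1 hg
  have hev : ∀ s : Fin chevD4.nroots, ev ((tD goodD4 dD4 dG2 φ c d : ↥(chevD4.group K)) : GL chevD4.Idx K) s =
      (((bdD4 goodD4 dD4 dG2 φ).chb j0 c s * (bdD4 goodD4 dD4 dG2 φ).chb j1 d s : Kˣ) : K) := by
    intro s
    have e1 := congrArg Subtype.val (tD_conj goodD4 dD4 dG2 φ c d s 1)
    have e2 := diag_mul_xU hD4 hgH s (1 : K)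
    have e3 : xU goodD4.toGood2 (s : ℕ) (ev ((tD goodD4 dD4 dG2 φ c d : ↥(chevD4.group K)) : GL chevD4.Idx K) s * 1) =
        xU goodD4.toGood2 (s : ℕ) ((((bdD4 goodD4 dD4 dG2 φ).chb j0 c s * (bdD4 goodD4 dD4 dG2 φ).chb j1 d s : Kˣ) : K) * 1) :=
      e2.symm.trans e1
    rw [mul_one, mul_one] at e3
    by_contra hne
    have e4 : xU goodD4.toGood2 (s : ℕ) (ev ((tD goodD4 dD4 dG2 φ c d : ↥(chevD4.group K)) : GL chevD4.Idx K) s -
        (((bdD4 goodD4 dD4 dG2 φ).chb j0 c s * (bdD4 goodD4 dD4 dG2 φ).chb j1 d s : Kˣ) : K)) = 1 := by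
      rw [sub_eq_add_neg, ← Inst.xU_add goodD4.toGood2 s.2, e3, Inst.xU_neg, mul_inv_cancel]
    exact Inst.xU_ne_one goodD4 s.2 (sub_ne_zero.2 hne) e4
  have hp : ∀ i : Fin 4, ((pD i : Fin chevD4.nroots) : ℕ) = chevD4.simple i := fun i => p_val dD4 i
  have e : ∀ i : Fin 4, ev ((tD goodD4 dD4 dG2 φ c d : ↥(chevD4.group K)) : GL chevD4.Idx K) (pD i) =
      ((c : K) ^ chevD4.cartan 0 (chevD4.simple i) * ((φ c : K) ^ chevD4.cartan 2 (chevD4.simple i) *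
        (φ (φ c) : K) ^ chevD4.cartan 3 (chevD4.simple i))) * (d : K) ^ chevD4.cartan 1 (chevD4.simple i) := by
    intro i
    rw [hev, chb_j0, chb_j1, hp]
    simp only [Units.val_mul, Units.val_zpow_eq_zpow_val, φu_val]
  have c0 : chevD4.cartan 0 (chevD4.simple 0) = 2 ∧ chevD4.cartan 2 (chevD4.simple 0) = 0 ∧
    chevD4.cartan 3 (chevD4.simple 0) = 0 ∧ chevD4.cartan 1 (chevD4.simple 0) = -1 := by decide +kernel
  have c1 : chevD4.cartan 0 (chevD4.simple 1) = -1 ∧ chevD4.cartan 2 (chevD4.simple 1) = -1 ∧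
    chevD4.cartan 3 (chevD4.simple 1) = -1 ∧ chevD4.cartan 1 (chevD4.simple 1) = 2 := by decide +kernel
  have c2 : chevD4.cartan 0 (chevD4.simple 2) = 0 ∧ chevD4.cartan 2 (chevD4.simple 2) = 2 ∧
    chevD4.cartan 3 (chevD4.simple 2) = 0 ∧ chevD4.cartan 1 (chevD4.simple 2) = -1 := by decide +kernel
  have c3 : chevD4.cartan 0 (chevD4.simple 3) = 0 ∧ chevD4.cartan 2 (chevD4.simple 3) = 0 ∧
    chevD4.cartan 3 (chevD4.simple 3) = 2 ∧ chevD4.cartan 1 (chevD4.simple 3) = -1 := by decide +kernel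
  have e0 := e 0
  have e1 := e 1
  have e2 := e 2
  have e3 := e 3
  have v0 : ((0 : Fin 4) : ℕ) = 0 := rfl
  have v1 : ((1 : Fin 4) : ℕ) = 1 := rfl
  have v2 : ((2 : Fin 4) : ℕ) = 2 := rfl
  have v3 : ((3 : Fin 4) : ℕ) = 3 := rfl
  rw [v0, c0.1, c0.2.1, c0.2.2.1, c0.2.2.2] at e0
  rw [v1, c1.1, c1.2.1, c1.2.2.1, c1.2.2.2] at e1
  rw [v2, c2.1, c2.2.1, c2.2.2.1, c2.2.2.2] at e2
  rw [v3, c3.1, c3.2.1, c3.2.2.1, c3.2.2.2] at e3
  refine ⟨?_, ?_, ?_⟩
  · change φ (ev ((tD goodD4 dD4 dG2 φ c d : ↥(chevD4.group K)) : GL chevD4.Idx K) (pD 0)) = ev ((tD goodD4 dD4 dG2 φ c d : ↥(chevD4.group K)) : GL chevD4.Idx K) (pD 2)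
    rw [e0, e2]
    simp only [map_mul, map_zpow₀, hd, _root_.zpow_zero, one_mul, mul_one, map_one]
  · change φ (ev ((tD goodD4 dD4 dG2 φ c d : ↥(chevD4.group K)) : GL chevD4.Idx K) (pD 2)) = ev ((tD goodD4 dD4 dG2 φ c d : ↥(chevD4.group K)) : GL chevD4.Idx K) (pD 3)
    rw [e2, e3]
    simp only [map_mul, map_zpow₀, hd, _root_.zpow_zero, one_mul, mul_one, map_one]
  · change φ (ev ((tD goodD4 dD4 dG2 φ c d : ↥(chevD4.group K)) : GL chevD4.Idx K) (pD 1)) = ev ((tD goodD4 dD4 dG2 φ c d : ↥(chevD4.group K)) : GL chevD4.Idx K) (pD 1)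
    rw [e1]
    simp only [map_mul, map_zpow₀, hd, h3]
    ring

end Cfsg.Agent.H51.TD4
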