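import Cfsg.Agent.H51.TD4c

set_option autoImplicit false
set_option maxRecDepth 100000

/-!
Sections of the triality twisted groups of type D4: the 3-local argument.
-/

namespace Cfsg.Agent.H51.TD4

open Matrix Cfsg.Lie Cfsg.Agent.Chev Cfsg.Agent.ChevGrp Cfsg.Agent.ChevF Cfsg.Agent.H51.TwoPrime Cfsg.Agent.H51.ChevFus
  Cfsg.Agent.H51.F4W Cfsg.Agent.H51.D4W Cfsg.Agent.H51.D4Diag Cfsg.Agent.Tw3 Cfsg.Agent.ChevGrp.DData

variable {K : Type*} [Field K] [Fintype K] {q : ℕ}

/-- no section with the relations `Rel` -/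
theorem no_rel {H Q : Type*} [Group H] [Group Q] [Finite H] [IsSimpleGroup Q] (r : A8Sec.Rel Q) (f : H →* Q)
    (hf : Function.Surjective f) (ψ : H →* GL chevD4.Idx K) (hψ : Function.Injective ψ)
    (hψm : ∀ h, ψ h ∈ twistedD4 K q) {p k : ℕ} [Fact p.Prime] (hqp : q = p ^ k) (hk0 : k ≠ 0)
    (hK : Fintype.card K = q ^ 3) (hq3 : 3 ∣ q - 1) : False := by
  classical
  have hq : IsPrimePow q := hqp ▸ (Fact.out : p.Prime).isPrimePow.pow hk0
  obtain ⟨φ, hφ, h3⟩ := frob3 hq hK
  haveI : Finite (GL chevD4.Idx K) := inferInstance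
  set R := TT φ with hR
  have hNle : R.N ≤ twistedD4 K q := N_le φ hφ h3 hq hK
  have hle : twistedD4 K q ≤ chevD4.group K := hle_D4
  have hGrp : R.Grp = twistedD4 K q := out_Grp hle_D4 (hG_D4 φ hφ h3)
  have hcom : ∀ a ∈ R.H, ∀ b ∈ R.H, a * b = b * a := comm_H φ hφ h3 hq hK
  refine A8Sec.main2 r f hf
    (fun A => ∃ g0 ∈ twistedD4 K q, ∀ v ∈ A, g0⁻¹ * ψ v * g0 ∈ R.H) ?_ ?_ ?_ ?_
  · rintro A B hAB ⟨g0, hg0, h⟩
    exact ⟨g0, hg0, fun v hv => h v (hAB hv)⟩
  · rintro A ⟨g0, hg0, h⟩ a ha b hb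
    apply hψ
    have h1 := hcom _ (h a ha) _ (h b hb)
    rw [map_mul, map_mul]
    have h2 : g0⁻¹ * (ψ a * ψ b) * g0 = g0⁻¹ * (ψ b * ψ a) * g0 := by
      calc g0⁻¹ * (ψ a * ψ b) * g0 = g0⁻¹ * ψ a * g0 * (g0⁻¹ * ψ b * g0) := by group
        _ = g0⁻¹ * ψ b * g0 * (g0⁻¹ * ψ a * g0) := h1
        _ = g0⁻¹ * (ψ b * ψ a) * g0 := by group
    exact mul_left_cancel (mul_right_cancel h2)
  · rintro A ⟨g0, hg0, h⟩ s hs x hx
    let γ : H →* GL chevD4.Idx K := (MulAut.conj g0⁻¹).toMonoidHom.comp ψ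
    have hγ : ∀ v, γ v = g0⁻¹ * ψ v * g0 := by
      intro v
      simp [γ, MulAut.conj_apply]
    have hγi : Function.Injective γ := by
      intro a b hab
      rw [hγ, hγ] at hab
      exact hψ (mul_left_cancel (mul_right_cancel hab))
    have h1 := TorFus.pow_comm R (p_U φ hφ h3 hq hK hqp) (cop_H φ hφ h3 hq hK hqp) hcom (d := 6)
      (fun m hm => six_N φ hφ h3 hm) (P := A.map γ) (by
        rintro _ ⟨v, hv, rfl⟩
        rw [hγ]; exact h v hv) (g := γ s) (by
        rw [hGrp, hγ]; exact mul_mem (mul_mem (inv_mem hg0) (hψm s)) hg0) (by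
        rintro _ ⟨v, hv, rfl⟩
        exact ⟨_, hs v hv, by rw [map_mul, map_mul, map_inv]⟩) (γ x) ⟨x, hx, rfl⟩
    apply hγi
    rw [map_mul, map_mul, map_pow]
    exact h1
  · intro P hP
    -- conjugate into `N`
    haveI : Fact (Nat.Prime 3) := ⟨Nat.prime_three⟩
    let ψ' : H →* ↥(twistedD4 K q) := ψ.codRestrict _ hψm
    obtain ⟨g0, hg0⟩ := conj_into (T := R.N.subgroupOf (twistedD4 K q)) (index_N φ hφ h3 hq hK hq3) (hP.map ψ')
    have hN : ∀ v ∈ P, (g0 : GL chevD4.Idx K)⁻¹ * ψ v * g0 ∈ R.N := fun v hv => hg0 _ ⟨v, hv, rfl⟩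
    let γ : H →* GL chevD4.Idx K := (MulAut.conj (g0 : GL chevD4.Idx K)⁻¹).toMonoidHom.comp ψ
    have hγ : ∀ v, γ v = (g0 : GL chevD4.Idx K)⁻¹ * ψ v * g0 := by
      intro v
      simp [γ, MulAut.conj_apply]
    have hγi : Function.Injective γ := by
      intro a b hab
      rw [hγ, hγ] at hab
      exact hψ (mul_left_cancel (mul_right_cancel hab))
    have hγm : ∀ v, γ v ∈ chevD4.group K := by
      intro v
      rw [hγ]
      exact hle (mul_mem (mul_mem (inv_mem g0.2) (hψm v)) g0.2)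
    set A : Subgroup H := P ⊓ (R.H).comap γ with hA
    have memA : ∀ v, v ∈ A ↔ v ∈ P ∧ γ v ∈ R.H := fun v => Iff.rfl
    have hγN : ∀ v ∈ P, γ v ∈ R.N := fun v hv => by rw [hγ]; exact hN v hv
    -- the rotation attached to an element outside `A`
    have hrot : ∀ v ∈ P, v ∉ A → ∃ u ∈ dD4.rp.wsys.W, (RR K).Act (γ v) u ∧ (wmD u = w1.toMat ∨ wmD u = w2.toMat) := by
      intro v hv hvA
      obtain ⟨k, hk⟩ := hP ⟨v, hv⟩
      have hk' : v ^ 3 ^ k = 1 := by simpa using congrArg Subtype.val hk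
      exact rot3 φ hφ h3 (hγN v hv) (k := k) (by rw [← map_pow, hk', map_one]) (fun h => hvA ((memA v).2 ⟨hv, h⟩))
    refine ⟨A, inf_le_left, ⟨g0, g0.2, fun v hv => by rw [← hγ]; exact ((memA v).1 hv).2⟩, ?_, ?_, ?_⟩
    · intro p hp a ha
      refine (memA _).2 ⟨P.mul_mem (P.mul_mem hp ((memA a).1 ha).1) (P.inv_mem hp), ?_⟩
      rw [map_mul, map_mul, map_inv]
      exact RGrp.N_conj_H (R := R) (hγN p hp) ((memA a).1 ha).2
    · intro b hb hbA p hp
      by_cases hpA : p ∈ A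
      · exact Or.inl hpA
      · obtain ⟨u, huW, hu, hu1⟩ := hrot b hb hbA
        obtain ⟨v, hvW, hv, hv1⟩ := hrot p hp hpA
        rcases rot_eq huW hvW hu1 hv1 with h | h
        · right; left
          refine (memA _).2 ⟨P.mul_mem (P.inv_mem hb) hp, ?_⟩
          rw [map_mul, map_inv]
          have h1 := hu.inv.mul hv
          rw [← h, inv_mul_cancel] at h1
          exact mem_H φ hφ h3 (mul_mem (inv_mem (hγN b hb)) (hγN p hp)) h1
        · right; right
          refine (memA _).2 ⟨P.mul_mem hb hp, ?_⟩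
          rw [map_mul]
          have h1 := hu.mul hv
          rw [h] at h1
          exact mem_H φ hφ h3 (mul_mem (hγN b hb) (hγN p hp)) h1
    · intro a ha g hbP hbA hcomm
      set b := g * a * g⁻¹ with hb
      obtain ⟨u, huW, hu, hu1⟩ := hrot b hbP hbA
      have hq1 : 1 ≤ q := hq.one_lt.le
      have hbN := act_N φ (hγN b hbP)
      -- elements of `A` commuting with `b`
      have key : ∀ x ∈ A, x * b = b * x → ∃ X : K, X ^ 3 = 1 ∧ ev (γ x) (pD 0) = X ∧ ev (γ x) (pD 1) = 1 ∧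
          ev (γ x) (pD 2) = X ∧ ev (γ x) (pD 3) = X := by
        intro x hx hxb
        have hxH := ((memA x).1 hx).2
        have hxT := (H_ev φ h3 hxH).1
        obtain ⟨k, hk⟩ := hP ⟨x, ((memA x).1 hx).1⟩
        have hk' : x ^ 3 ^ k = 1 := by simpa using congrArg Subtype.val hk
        refine fix_rot φ hφ h3 hxH hu1 ?_ hq3 hq1 (k := k) (by rw [← map_pow, hk', map_one])
        intro s
        have h1 := N_conj_ev dD4 hD4 hbN.1 hu hxT s
        have h2 : γ b * γ x * (γ b)⁻¹ = γ x := by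
          rw [← map_mul, ← hxb, map_mul, mul_inv_cancel_right]
        rwa [h2] at h1
      obtain ⟨X, hX3, a0, a1, a2, a3⟩ := key a ha hcomm
      have haT := (H_ev φ h3 ((memA a).1 ha).2).1
      have hext : ∀ x ∈ A, ∀ y ∈ A, ev (γ x) (pD 0) = ev (γ y) (pD 0) → ev (γ x) (pD 1) = ev (γ y) (pD 1) →
          ev (γ x) (pD 2) = ev (γ y) (pD 2) → ev (γ x) (pD 3) = ev (γ y) (pD 3) → x = y := by
        intro x hx y hy h0 h1 h2 h4
        apply hγi
        apply ev_ext dD4 hD4 (H_ev φ h3 ((memA x).1 hx).2).1 (H_ev φ h3 ((memA y).1 hy).2).1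
        have : ∀ i : Fin 4, ev (γ x) (pD i) = ev (γ y) (pD i) := by
          intro i
          fin_cases i
          · exact h0
          · exact h1
          · exact h2
          · exact h4
        exact this
      have hpow : ∀ (n : ℕ) (s : Fin chevD4.nroots), ev (γ (a ^ n)) s = ev (γ a) s ^ n := by
        intro n s
        rw [map_pow, ev_pow hD4 haT]
      have hone : ∀ s : Fin chevD4.nroots, ev (γ 1) s = 1 := by intro s; rw [map_one, ev_one]
      have hX1 : X ≠ 1 := by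
        intro h
        have ha1 : a = 1 := by
          apply hext a ha 1 (one_mem _)
          · rw [hone, a0, h]
          · rw [hone, a1]
          · rw [hone, a2, h]
          · rw [hone, a3, h]
        apply hbA
        rw [hb, ha1, mul_one, mul_inv_cancel]
        exact one_mem _
      have ha3 : a ^ 3 = 1 := by
        apply hext _ (pow_mem ha 3) 1 (one_mem _)
        · rw [hpow, hone, a0, hX3]
        · rw [hpow, hone, a1, one_pow]
        · rw [hpow, hone, a2, hX3]
        · rw [hpow, hone, a3, hX3]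
      refine ⟨ha3, ?_, ?_⟩
      · intro x hx hxb
        obtain ⟨Y, hY3, y0, y1, y2, y3⟩ := key x hx hxb
        have hY : Y = 1 ∨ Y = X ∨ Y = X ^ 2 := by
          have h5 : (Y - 1) * ((Y - X) * (Y - X ^ 2)) = 0 := by
            have hX2 : X ^ 2 + X + 1 = 0 := by
              have h5 : (X - 1) * (X ^ 2 + X + 1) = 0 := by ring_nf; rw [hX3]; ring
              rcases mul_eq_zero.1 h5 with h6 | h6
              · exact absurd (sub_eq_zero.1 h6) hX1
              · exact h6
            linear_combination hY3 + (-Y ^ 2 + Y) * hX2 + (Y - 1) * hX3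
          rcases mul_eq_zero.1 h5 with h6 | h6
          · left; exact sub_eq_zero.1 h6
          · rcases mul_eq_zero.1 h6 with h7 | h7
            · right; left; exact sub_eq_zero.1 h7
            · right; right; exact sub_eq_zero.1 h7
        have hex : ∀ n : ℕ, Y = X ^ n → x = a ^ n := by
          intro n hn
          apply hext x hx _ (pow_mem ha n)
          · rw [hpow, a0, y0, hn]
          · rw [hpow, a1, y1, one_pow]
          · rw [hpow, a2, y2, hn]
          · rw [hpow, a3, y3, hn]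
        rcases hY with h | h | h
        · rw [hex 0 (by rw [h, pow_zero]), pow_zero]; exact one_mem _
        · rw [hex 1 (by rw [h, pow_one]), pow_one]; exact Subgroup.mem_zpowers a
        · rw [hex 2 h]; exact Subgroup.pow_mem _ (Subgroup.mem_zpowers a) 2
      · intro s hsa hsb
        refine no_refl (K := K) ?_ hX3 hX1 (a := γ a) (b := γ b) (g := γ g) (s := γ s) haT ?_ hbN.1 ?_ ?_ ?_ (hγm g) ?_ (hγm s) ?_ ?_
        · rw [hK]
          exact hq3.trans (by simpa using Nat.sub_dvd_pow_sub_pow q 1 3)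
        · refine ⟨?_, ?_, ?_, ?_⟩
          · rw [a0]; simp
          · rw [a1]; simp
          · rw [a2]; simp
          · rw [a3]; simp
        · intro h
          apply hbA
          refine (memA b).2 ⟨hbP, ?_⟩
          have h1 : γ b ∈ twistedD4 K q := hNle (hγN b hbP)
          rw [hR, out_H hle_D4 (hG_D4 φ hφ h3)]
          exact ⟨h, h1⟩
        · rw [← map_mul, ← map_mul, hcomm]
        · rw [← map_pow, ha3, map_one]
        · rw [hb, map_mul, map_mul, map_inv]
        · rw [← map_inv, ← map_mul, ← map_mul, hsa]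
        · rw [← map_inv, ← map_mul, ← map_mul, hsb, map_inv]

/-- elements of order five -/
theorem five_comm (φ : K ≃+* K) (hφ : ∀ t, φ t = t ^ q) (h3 : ∀ t, φ (φ (φ t)) = t)
    {p k : ℕ} [Fact p.Prime] (hqp : q = p ^ k) (hk0 : k ≠ 0) (hK : Fintype.card K = q ^ 3) (hq5 : 5 ∣ q - 1)
    (P : Subgroup ↥(twistedD4 K q)) (hP : IsPGroup 5 P) (g : ↥(twistedD4 K q)) (hg : ∀ x ∈ P, g * x * g⁻¹ ∈ P) :
    ∀ x ∈ P, g ^ 6 * x = x * g ^ 6 := by
  have hq : IsPrimePow q := hqp ▸ (Fact.out : p.Prime).isPrimePow.pow hk0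
  haveI : Finite (GL chevD4.Idx K) := inferInstance
  haveI : Fact (Nat.Prime 5) := ⟨by norm_num⟩
  exact TorFus.pow_comm_sylow (TT φ) (p_U φ hφ h3 hq hK hqp) (cop_H φ hφ h3 hq hK hqp) (comm_H φ hφ h3 hq hK)
    (d := 6) (fun m hm => six_N φ hφ h3 hm) (Tw := twistedD4 K q) (out_Grp hle_D4 (hG_D4 φ hφ h3))
    (ℓ := 5) (index_H φ hφ h3 hq hK hq5) P hP g hg

end Cfsg.Agent.H51.TD4
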