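import Cfsg.Agent.H51.TD4
import Cfsg.Agent.H51.A8Sec2
import Cfsg.Agent.ChevF.TorRows

set_option autoImplicit false
set_option maxRecDepth 100000

/-!
Local structure of the triality twisted groups of type D4, continued.
-/

namespace Cfsg.Agent.H51.TD4

open Matrix Cfsg.Lie Cfsg.Agent.Chev Cfsg.Agent.ChevGrp Cfsg.Agent.ChevF Cfsg.Agent.H51.TwoPrime Cfsg.Agent.H51.ChevFus
  Cfsg.Agent.H51.F4W Cfsg.Agent.H51.D4W Cfsg.Agent.H51.D4Diag Cfsg.Agent.Tw3 Cfsg.Agent.ChevGrp.DData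

/-- matrices of the twisted Weyl group -/
lemma rot_of {x : M4} (hx : x ∈ LG) : ((x.mul x).mul x).mul ((x.mul x).mul x) = M4.one ∧
    ((x.mul x).mul x = M4.one → x = M4.one ∨ x = w1 ∨ x = w2) := by
  have hc := rot_chk
  rw [List.all_eq_true] at hc
  have h1 := hc x hx
  rw [Bool.and_eq_true] at h1
  refine ⟨of_decide_eq_true h1.1, fun h => ?_⟩
  have h2 := h1.2
  simp only [Bool.or_eq_true, Bool.not_eq_true', decide_eq_false_iff_not, decide_eq_true_eq] at h2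
  tauto

lemma wmD_cube {u : Equiv.Perm (Fin chevD4.nroots)} (hu : u ∈ dD4.rp.wsys.W) {x : M4} (h : wmD u = x.toMat) :
    wmD (u ^ 3) = ((x.mul x).mul x).toMat := by
  have e : u ^ 3 = u * u * u := by simp only [pow_succ, pow_zero, one_mul]
  rw [e, wmD_mul (mul_mem hu hu), wmD_mul hu, h, M4.toMat_mul, M4.toMat_mul]

lemma six_u {u : Equiv.Perm (Fin chevD4.nroots)} (hu : u ∈ dD4.rp.wsys.W) {x : M4} (hx : x ∈ LG) (h : wmD u = x.toMat) :
    u ^ 6 = 1 := by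
  apply wmD_inj (pow_mem hu 6) (one_mem _)
  have e : u ^ 6 = u ^ 3 * u ^ 3 := by rw [← pow_add]
  rw [e, wmD_mul (pow_mem hu 3), wmD_cube hu h, ← M4.toMat_mul, (rot_of hx).1, M4.toMat_one, wmD_one]

lemma w12 : w1.mul w2 = M4.one ∧ w2.mul w1 = M4.one := by decide +kernel

/-- the product of the two rotations -/
lemma rot_eq {u v : Equiv.Perm (Fin chevD4.nroots)} (hu : u ∈ dD4.rp.wsys.W) (hv : v ∈ dD4.rp.wsys.W)
    (hu1 : wmD u = w1.toMat ∨ wmD u = w2.toMat) (hv1 : wmD v = w1.toMat ∨ wmD v = w2.toMat) : u = v ∨ u * v = 1 := by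
  rcases hu1 with h | h <;> rcases hv1 with h' | h'
  · left; exact wmD_inj hu hv (h.trans h'.symm)
  · right
    apply wmD_inj (mul_mem hu hv) (one_mem _)
    rw [wmD_mul hu, h, h', wmD_one, ← M4.toMat_mul, w12.1, M4.toMat_one]
  · right
    apply wmD_inj (mul_mem hu hv) (one_mem _)
    rw [wmD_mul hu, h, h', wmD_one, ← M4.toMat_mul, w12.2, M4.toMat_one]
  · left; exact wmD_inj hu hv (h.trans h'.symm)

variable {K : Type*} [Field K] (φ : K ≃+* K) {q : ℕ} (hφ : ∀ t, φ t = t ^ q) (h3 : ∀ t, φ (φ (φ t)) = t)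
include hφ h3

/-- membership in the torus -/
lemma mem_H {n : GL chevD4.Idx K} (hn : n ∈ (TT φ).N) (h : (RR K).Act n 1) : n ∈ (TT φ).H := by
  have h6 : n ∈ chevD4.diagonalSubgroup K := RGrp.mem_H_of_act_one (R := RR K) (act_N φ hn).1 h
  rw [out_N hle_D4 (hG_D4 φ hφ h3)] at hn
  rw [out_H hle_D4 (hG_D4 φ hφ h3)]
  exact ⟨h6, hn.2⟩

/-- sixth powers -/
theorem six_N {n : GL chevD4.Idx K} (hn : n ∈ (TT φ).N) : n ^ 6 ∈ (TT φ).H := by
  obtain ⟨h1, u, hu, h2, x, hx, h4⟩ := act_N φ hn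
  have h5 : (RR K).Act (n ^ 6) (u ^ 6) := act_pow dD4 (hD := hD4) h2 6
  rw [six_u hu hx h4] at h5
  exact mem_H φ hφ h3 (pow_mem hn 6) h5

/-- the rotations -/
theorem rot3 {n : GL chevD4.Idx K} (hn : n ∈ (TT φ).N) {k : ℕ} (hk : n ^ 3 ^ k = 1) (hnH : n ∉ (TT φ).H) :
    ∃ u ∈ dD4.rp.wsys.W, (RR K).Act n u ∧ (wmD u = w1.toMat ∨ wmD u = w2.toMat) := by
  obtain ⟨h1, u, hu, h2, x, hx, h4⟩ := act_N φ hn
  have hu3 : u ^ 3 = 1 := by
    have e1 : (RR K).Act (n ^ 3 ^ k) (u ^ 3 ^ k) := act_pow dD4 (hD := hD4) h2 (3 ^ k)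
    rw [hk] at e1
    have e2 : u ^ 3 ^ k = 1 := e1.unique RGrp.act_one
    have e4 : orderOf u ∣ 3 ^ k := orderOf_dvd_of_pow_eq_one e2
    have e6 : orderOf u ∣ 6 := orderOf_dvd_of_pow_eq_one (six_u hu hx h4)
    obtain ⟨m, -, hm⟩ := (Nat.dvd_prime_pow Nat.prime_three).1 e4
    rw [hm] at e6
    have e7 : 3 ^ m ∣ 3 := by
      have : m ≤ 1 := by
        by_contra hcon
        have h8 : 3 ^ 2 ∣ 3 ^ m := pow_dvd_pow 3 (by omega)
        have := h8.trans e6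
        norm_num at this
      interval_cases m <;> norm_num
    exact orderOf_dvd_iff_pow_eq_one.1 (hm ▸ e7)
  refine ⟨u, hu, h2, ?_⟩
  have h5 := wmD_cube hu h4
  rw [hu3, wmD_one, ← M4.toMat_one] at h5
  rcases (rot_of hx).2 (toMat_inj h5).symm with h | h | h
  · exfalso
    apply hnH
    apply mem_H φ hφ h3 hn
    have : u = 1 := wmD_inj hu (one_mem _) (by rw [h4, h, M4.toMat_one, wmD_one])
    rw [← this]; exact h2
  · left; rw [h4, h]
  · right; rw [h4, h]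

/-- torus elements fixed by a rotation -/
theorem fix_rot {a : GL chevD4.Idx K} (ha : a ∈ (TT φ).H) {u : Equiv.Perm (Fin chevD4.nroots)}
    (hu : wmD u = w1.toMat ∨ wmD u = w2.toMat) (hfix : ∀ s, ev a (u s) = ev a s) (hq : 3 ∣ q - 1) (hq0 : 1 ≤ q)
    {k : ℕ} (hk : a ^ 3 ^ k = 1) :
    ∃ X : K, X ^ 3 = 1 ∧ ev a (pD 0) = X ∧ ev a (pD 1) = 1 ∧ ev a (pD 2) = X ∧ ev a (pD 3) = X := by
  obtain ⟨hd, f0, f2, f1⟩ := H_ev φ h3 ha
  set X := ev a (pD 0) with hX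
  set Y := ev a (pD 1) with hY
  set Z := ev a (pD 2) with hZ
  set T := ev a (pD 3) with hT
  have hX0 : X ≠ 0 := ev_ne_zero hD4 hd _
  have hY0 : Y ≠ 0 := ev_ne_zero hD4 hd _
  have hZ0 : Z ≠ 0 := ev_ne_zero hD4 hd _
  have hT0 : T ≠ 0 := ev_ne_zero hD4 hd _
  have hcol : ∀ {x : M4}, wmD u = x.toMat → ∀ j : Fin 4, ev a (pD j) = X ^ x.toMat 0 j * Y ^ x.toMat 1 j *
      Z ^ x.toMat 2 j * T ^ x.toMat 3 j := by
    intro x hx j
    obtain ⟨h0, h1, h2, h4⟩ := ex_col hx j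
    have := hfix (pD j)
    rw [evF hd, h0, h1, h2, h4] at this
    exact this.symm
  have main : Y = 1 ∧ X * Z * T = 1 := by
    rcases hu with hx | hx
    · have e0 : X = X ^ (0 : ℤ) * Y ^ (-1 : ℤ) * Z ^ (-1 : ℤ) * T ^ (-1 : ℤ) := hcol hx 0
      have e1 : Y = X ^ (1 : ℤ) * Y ^ (1 : ℤ) * Z ^ (1 : ℤ) * T ^ (1 : ℤ) := hcol hx 1
      simp only [_root_.zpow_zero, _root_.zpow_one, one_mul, _root_.zpow_neg] at e0 e1
      have h1 : X * Z * T = 1 := by
        apply mul_left_cancel₀ hY0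
        rw [mul_one]
        conv_rhs => rw [e1]
        ring
      refine ⟨?_, h1⟩
      have h2 : X * (Y * Z * T) = 1 := by
        conv_lhs => rw [e0]
        field_simp
      calc Y = Y * (X * Z * T) := by rw [h1, mul_one]
        _ = X * (Y * Z * T) := by ring
        _ = 1 := h2
    · have e0 : X = X ^ (1 : ℤ) * Y ^ (1 : ℤ) * Z ^ (0 : ℤ) * T ^ (0 : ℤ) := hcol hx 0
      have e1 : Y = X ^ (-1 : ℤ) * Y ^ (-2 : ℤ) * Z ^ (-1 : ℤ) * T ^ (-1 : ℤ) := hcol hx 1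
      simp only [_root_.zpow_zero, _root_.zpow_one, mul_one] at e0
      have h1 : Y = 1 := by
        apply mul_left_cancel₀ hX0
        rw [mul_one]; exact e0.symm
      refine ⟨h1, ?_⟩
      rw [h1] at e1
      simp only [_root_.one_zpow, _root_.zpow_one, mul_one, _root_.zpow_neg] at e1
      have h2 : X * Z * T * 1 = 1 := by
        conv_lhs => rw [e1]
        field_simp
      rwa [mul_one] at h2
  obtain ⟨hY1, hN⟩ := main
  have hq1 : X ^ (1 + q + q ^ 2) = 1 := by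
    rw [← f2, ← f0, hφ, hφ, ← pow_mul] at hN
    rw [← hN]
    ring
  have hk' : X ^ 3 ^ k = 1 := by
    rw [hX, ← ev_pow hD4 hd, hk, ev_one]
  have hX3 : X ^ 3 = 1 := by
    set x := Units.mk0 X hX0 with hx
    have e1 : x ^ (1 + q + q ^ 2) = 1 := Units.ext (by rw [Units.val_pow_eq_pow_val]; exact hq1)
    have e2 : x ^ 3 ^ k = 1 := Units.ext (by rw [Units.val_pow_eq_pow_val]; exact hk')
    have e3 : orderOf x ∣ 1 + q + q ^ 2 := orderOf_dvd_of_pow_eq_one e1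
    have e4 : orderOf x ∣ 3 ^ k := orderOf_dvd_of_pow_eq_one e2
    obtain ⟨m, -, hm⟩ := (Nat.dvd_prime_pow Nat.prime_three).1 e4
    have e5 : x ^ 3 = 1 := by
      apply orderOf_dvd_iff_pow_eq_one.1
      rw [hm] at e3 ⊢
      have h5 : m ≤ 1 := by
        by_contra hcon
        have h8 : 3 ^ 2 ∣ 3 ^ m := pow_dvd_pow 3 (by omega)
        have h9 := h8.trans e3
        obtain ⟨c, hc⟩ := hq
        have hqc : q = 3 * c + 1 := by omega
        rw [hqc] at h9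
        have h10 : 1 + (3 * c + 1) + (3 * c + 1) ^ 2 = 9 * (c ^ 2 + c) + 3 := by ring
        rw [h10] at h9
        omega
      interval_cases m <;> norm_num
    have := congrArg Units.val e5
    rwa [Units.val_pow_eq_pow_val] at this
  have hXq : X ^ q = X := by
    obtain ⟨c, hc⟩ := hq
    have hqc : q = 3 * c + 1 := by omega
    rw [hqc, pow_succ, pow_mul, hX3, one_pow, one_mul]
  have hZX : Z = X := by rw [← f0, hφ, hXq]
  refine ⟨X, hX3, rfl, hY1, hZX, ?_⟩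
  rw [← f2, hZX, hφ, hXq]

end Cfsg.Agent.H51.TD4
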