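import Cfsg.Agent.H51.TD4b

set_option autoImplicit false
set_option maxRecDepth 100000

/-!
Indices and embeddings of the triality twisted groups.
-/

namespace Cfsg.Agent.H51.TD4

open Matrix Cfsg.Lie Cfsg.Agent.Chev Cfsg.Agent.ChevGrp Cfsg.Agent.ChevF Cfsg.Agent.H51.TwoPrime Cfsg.Agent.H51.ChevFus
  Cfsg.Agent.H51.F4W Cfsg.Agent.H51.D4W Cfsg.Agent.H51.D4Diag Cfsg.Agent.Tw3 Cfsg.Agent.ChevGrp.DData

/-- embedding into a larger triality group -/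
theorem emb {K L : Type*} [Field K] [Field L] {q Q : ℕ} (ι : K →+* L) (h : ∀ t : K, ι t ^ Q = ι (t ^ q))
    {g : GL chevD4.Idx K} (hg : g ∈ twistedD4 K q) : glMap chevD4.Idx ι g ∈ twistedD4 L Q := by
  have h1 : twistedD4 K q ≤ (twistedD4 L Q).comap (glMap chevD4.Idx ι) := by
    unfold twistedD4 ChevalleyDatum.genSubgroup
    rw [Subgroup.closure_le]
    rintro g ⟨w, hw, hg⟩
    have e1 : ∀ w : List (ℕ × K), (chevD4.wordMat K w).map ι = chevD4.wordMat L (w.map fun p => (p.1, ι p.2)) := by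
      intro w
      induction w with
      | nil => simp [ChevalleyDatum.wordMat]
      | cons a w ih =>
        unfold ChevalleyDatum.wordMat at ih ⊢
        rw [List.map_cons, List.prod_cons, Matrix.map_mul, ih, x_map, List.map_cons, List.map_cons, List.prod_cons]
    refine Subgroup.subset_closure ⟨w.map fun p => (p.1, ι p.2), ?_, ?_⟩
    · rcases hw with ⟨t, ht, r, hr, rfl⟩ | ⟨t, rs, hrs, rfl⟩
      · left
        refine ⟨ι t, ?_, r, hr, rfl⟩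
        rw [h, ht]
      · right
        refine ⟨ι t, rs, hrs, ?_⟩
        have e2 : ι t ^ Q ^ 2 = ι (t ^ q ^ 2) := by
          rw [pow_two, pow_mul, h, h, ← pow_mul, ← pow_two]
        rw [h, e2]
        rfl
    · rw [glMap_coe, hg, e1]
  exact h1 hg

variable {K : Type*} [Field K] [Fintype K] (φ : K ≃+* K) {q : ℕ} (hφ : ∀ t, φ t = t ^ q) (h3 : ∀ t, φ (φ (φ t)) = t)
  (hq : IsPrimePow q) (hK : Fintype.card K = q ^ 3)
include hφ h3 hq hK

theorem card_H' : Nat.card (TT φ).H = (q ^ 3 - 1) * (q - 1) := by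
  rw [out_H hle_D4 (hG_D4 φ hφ h3)]
  exact card_H_D4 hq hK

theorem card_N' : Nat.card (TT φ).N = 12 * ((q ^ 3 - 1) * (q - 1)) := by
  have h1 := Subgroup.card_eq_card_quotient_mul_card_subgroup (TT φ).nuHom.ker
  rw [RGrp.nuHom_ker] at h1
  have h2 : Nat.card ((TT φ).N ⧸ (TT φ).H.subgroupOf (TT φ).N) = 12 := by
    have h3 := Nat.card_congr (QuotientGroup.quotientKerEquivRange (TT φ).nuHom).toEquiv
    rw [RGrp.nuHom_range] at h3
    have h4 := card_W_G2 dG2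
    rw [← RGrp.nuHom_ker]
    exact h3.trans h4
  have h5 : Nat.card ((TT φ).H.subgroupOf (TT φ).N) = (q ^ 3 - 1) * (q - 1) := by
    rw [← card_H' φ hφ h3 hq hK]
    exact Nat.card_congr (Subgroup.subgroupOfEquivOfLe (TT φ).H_le_N).toEquiv
  rw [h2, h5] at h1
  exact h1

theorem N_le : (TT φ).N ≤ twistedD4 K q := by
  rw [out_N hle_D4 (hG_D4 φ hφ h3)]
  exact inf_le_right

theorem H_le : (TT φ).H ≤ twistedD4 K q := by
  rw [out_H hle_D4 (hG_D4 φ hφ h3)]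
  exact inf_le_right

theorem p_U {p : ℕ} [Fact p.Prime] {k : ℕ} (hqp : q = p ^ k) : IsPGroup p (TT φ).U := by
  apply IsPGroup.of_card (n := k * 12)
  rw [out_U hle_D4 (hG_D4 φ hφ h3), card_U_D4 hq hK, hqp, ← pow_mul]

theorem cop_H {p : ℕ} [Fact p.Prime] {k : ℕ} (hqp : q = p ^ k) : Nat.Coprime p (Nat.card (TT φ).H) := by
  rw [card_H' φ hφ h3 hq hK]
  have hk : k ≠ 0 := by
    rintro rfl
    rw [pow_zero] at hqp
    have := hq.two_le
    omega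
  have hpq : p ∣ q := by rw [hqp]; exact dvd_pow_self p hk
  have hq2 := hq.two_le
  have hp := (Fact.out : p.Prime)
  have h1 : ∀ m : ℕ, 1 ≤ m → p ∣ m → Nat.Coprime p (m - 1) := by
    intro m hm hpm
    rw [Nat.Prime.coprime_iff_not_dvd hp]
    intro hd
    have := (Nat.dvd_sub hpm hd)
    rw [Nat.sub_sub_self hm] at this
    exact hp.one_lt.ne' (Nat.dvd_one.1 this)
  exact Nat.Coprime.mul_right (h1 _ (Nat.one_le_pow _ _ (by omega)) (hpq.trans (dvd_pow_self q (by norm_num))))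
    (h1 _ (by omega) hpq)

theorem comm_H : ∀ a ∈ (TT φ).H, ∀ b ∈ (TT φ).H, a * b = b * a := by
  intro a ha b hb
  exact diag_comm hD4 (H_ev φ h3 ha).1 (H_ev φ h3 hb).1

theorem index_N (hq3 : 3 ∣ q - 1) : ¬ 3 ∣ ((TT φ).N.subgroupOf (twistedD4 K q)).index := by
  haveI : Finite (GL chevD4.Idx K) := inferInstance
  have h4 := Subgroup.card_mul_index ((TT φ).N.subgroupOf (twistedD4 K q))
  rw [Nat.card_congr (Subgroup.subgroupOfEquivOfLe (N_le φ hφ h3 hq hK)).toEquiv, card_N' φ hφ h3 hq hK, card_D4 hq hK] at h4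
  generalize ((TT φ).N.subgroupOf (twistedD4 K q)).index = I at h4
  rintro ⟨J, rfl⟩
  have hq2 := hq.two_le
  obtain ⟨m, hm⟩ := hq3
  have hqm : q = 3 * m + 1 := by omega
  have hm0 : 0 < m := by
    rcases Nat.eq_zero_or_pos m with h | h
    · rw [h] at hm; omega
    · exact h
  clear hφ h3 hq hK
  subst hqm
  have e0 : 3 * m + 1 - 1 = 3 * m := rfl
  have e1 : (3 * m + 1) ^ 3 - 1 = 3 * m * ((3 * m + 1) ^ 2 + (3 * m + 1) + 1) := by
    apply Nat.sub_eq_of_eq_add; ring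
  have e2 : (3 * m + 1) ^ 2 - 1 = 3 * m * (3 * m + 2) := by
    apply Nat.sub_eq_of_eq_add; ring
  have e3 : (3 * m + 1) ^ 6 - 1 = 3 * m * ((3 * m + 1) ^ 2 + (3 * m + 1) + 1) * ((3 * m + 1) ^ 3 + 1) := by
    apply Nat.sub_eq_of_eq_add; ring
  rw [e0, e1, e2, e3] at h4
  have h5 : 36 * J = (3 * m + 1) ^ 12 * (3 * m + 2) * ((3 * m + 1) ^ 3 + 1) * ((3 * m + 1) ^ 8 + (3 * m + 1) ^ 4 + 1) := by
    apply Nat.eq_of_mul_eq_mul_left (show 0 < 3 * m * ((3 * m + 1) ^ 2 + (3 * m + 1) + 1) * (3 * m) by positivity)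
    calc 3 * m * ((3 * m + 1) ^ 2 + (3 * m + 1) + 1) * (3 * m) * (36 * J)
        = 12 * (3 * m * ((3 * m + 1) ^ 2 + (3 * m + 1) + 1) * (3 * m)) * (3 * J) := by ring
      _ = _ := h4
      _ = _ := by ring
  have h6 : (((3 * m + 1) ^ 12 * (3 * m + 2) * ((3 * m + 1) ^ 3 + 1) * ((3 * m + 1) ^ 8 + (3 * m + 1) ^ 4 + 1) : ℕ) : ZMod 9) = 0 := by
    rw [← h5, ZMod.natCast_eq_zero_iff]
    exact Dvd.intro (4 * J) (by ring)
  have h7 : ∀ y : ZMod 9, (3 * y + 1) ^ 12 * (3 * y + 2) * ((3 * y + 1) ^ 3 + 1) * ((3 * y + 1) ^ 8 + (3 * y + 1) ^ 4 + 1) ≠ 0 := by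
    decide
  apply h7 (m : ZMod 9)
  rw [← h6]
  push_cast
  ring

theorem index_H (hq5 : 5 ∣ q - 1) : ¬ 5 ∣ ((TT φ).H.subgroupOf (twistedD4 K q)).index := by
  haveI : Finite (GL chevD4.Idx K) := inferInstance
  have h4 := Subgroup.card_mul_index ((TT φ).H.subgroupOf (twistedD4 K q))
  rw [Nat.card_congr (Subgroup.subgroupOfEquivOfLe (H_le φ hφ h3 hq hK)).toEquiv, card_H' φ hφ h3 hq hK, card_D4 hq hK] at h4
  generalize ((TT φ).H.subgroupOf (twistedD4 K q)).index = I at h4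
  rintro ⟨J, rfl⟩
  have hq2 := hq.two_le
  obtain ⟨m, hm⟩ := hq5
  have hqm : q = 5 * m + 1 := by omega
  have hm0 : 0 < m := by
    rcases Nat.eq_zero_or_pos m with h | h
    · rw [h] at hm; omega
    · exact h
  clear hφ h3 hq hK
  subst hqm
  have e0 : 5 * m + 1 - 1 = 5 * m := rfl
  have e1 : (5 * m + 1) ^ 3 - 1 = 5 * m * ((5 * m + 1) ^ 2 + (5 * m + 1) + 1) := by
    apply Nat.sub_eq_of_eq_add; ring
  have e2 : (5 * m + 1) ^ 2 - 1 = 5 * m * (5 * m + 2) := by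
    apply Nat.sub_eq_of_eq_add; ring
  have e3 : (5 * m + 1) ^ 6 - 1 = 5 * m * ((5 * m + 1) ^ 2 + (5 * m + 1) + 1) * ((5 * m + 1) ^ 3 + 1) := by
    apply Nat.sub_eq_of_eq_add; ring
  rw [e0, e1, e2, e3] at h4
  have h5 : 5 * J = (5 * m + 1) ^ 12 * (5 * m + 2) * ((5 * m + 1) ^ 3 + 1) * ((5 * m + 1) ^ 8 + (5 * m + 1) ^ 4 + 1) := by
    apply Nat.eq_of_mul_eq_mul_left (show 0 < 5 * m * ((5 * m + 1) ^ 2 + (5 * m + 1) + 1) * (5 * m) by positivity)
    calc 5 * m * ((5 * m + 1) ^ 2 + (5 * m + 1) + 1) * (5 * m) * (5 * J) = _ := h4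
      _ = _ := by ring
  have h6 : (((5 * m + 1) ^ 12 * (5 * m + 2) * ((5 * m + 1) ^ 3 + 1) * ((5 * m + 1) ^ 8 + (5 * m + 1) ^ 4 + 1) : ℕ) : ZMod 5) = 0 := by
    rw [← h5, ZMod.natCast_eq_zero_iff]
    exact Dvd.intro J rfl
  have h7 : ∀ y : ZMod 5, (5 * y + 1) ^ 12 * (5 * y + 2) * ((5 * y + 1) ^ 3 + 1) * ((5 * y + 1) ^ 8 + (5 * y + 1) ^ 4 + 1) ≠ 0 := by
    decide
  apply h7 (m : ZMod 5)
  rw [← h6]
  push_cast
  ring

end Cfsg.Agent.H51.TD4
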